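import Mathlib.Data.List.Basic
import Mathlib.Data.Nat.Bits
import Cfsg.Agent.ThreeTransp.U43.Data

/-!
Vectors of the six-dimensional space over four elements as pairs of six-bit masks, and the finite
checks on them.
-/

set_option autoImplicit false

namespace CfsgLib.U43

def lo (n : ℕ) : ℕ := n &&& 63
def hi (n : ℕ) : ℕ := (n >>> 6) &&& 63

/-- multiplication by the primitive element -/
def omN (n : ℕ) : ℕ := hi n ||| ((lo n ^^^ hi n) <<< 6)

/-- multiplication by the element with code `a` -/
def smulN : ℕ → ℕ → ℕ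
  | 0, _ => 0
  | 1, n => n
  | 2, n => omN n
  | _, n => omN (omN n)

/-- parity of a six-bit mask -/
def par (x : ℕ) : ℕ := (0x6996966996696996 >>> x) &&& 1

/-- the code of the hermitian form -/
def hN (m n : ℕ) : ℕ :=
  par ((lo m &&& lo n) ^^^ (lo m &&& hi n) ^^^ (hi m &&& hi n))
    + 2 * par ((lo m &&& hi n) ^^^ (hi m &&& lo n))

/-- multiplication of codes of field elements -/
def mulT (a b : ℕ) : ℕ :=
  if a == 0 || b == 0 then 0 else (a + b - 2) % 3 + 1

def digN (n i : ℕ) : ℕ := ((n >>> i) &&& 1) + 2 * ((n >>> (i + 6)) &&& 1)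

/-- weight of a vector -/
def wtN (n : ℕ) : ℕ := ((List.range 6).filter fun i => !Nat.beq (digN n i) 0).length

/-- product of the coordinates -/
def prodN (n : ℕ) : ℕ := ((List.range 6).map (digN n)).foldr mulT 1

/-- the vectors of support two, and for `c ≠ 0` those without zero coordinate with product `c` -/
def PN (c n : ℕ) : Bool := Nat.beq (wtN n) 2 || (!Nat.beq c 0 && Nat.beq (prodN n) c)

/-- the transvection at `p` -/
def tvN (p x : ℕ) : ℕ := x ^^^ smulN (hN x p) p

def ptN (c i : ℕ) : ℕ := (ptTab c >>> (16 * i)) &&& 65535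
def posN (c n : ℕ) : ℕ := (posTab c >>> (8 * n)) &&& 255
def phiN (c i : ℕ) : ℕ := (phiTab c >>> (16 * i)) &&& 65535
def phiPosN (c n : ℕ) : ℕ := (phiPosTab c >>> (8 * n)) &&& 255

def d3 (n i : ℕ) : ℕ := n / 3 ^ i % 3

def qN (n : ℕ) : ℕ := (d3 n 0 * d3 n 2 + d3 n 1 * d3 n 3 + d3 n 4 ^ 2 + d3 n 5 ^ 2) % 3

def bN (m n : ℕ) : ℕ :=
  (d3 m 0 * d3 n 2 + d3 m 2 * d3 n 0 + d3 m 1 * d3 n 3 + d3 m 3 * d3 n 1
    + 2 * (d3 m 4 * d3 n 4) + 2 * (d3 m 5 * d3 n 5)) % 3

/-- the linear combination `x + t a` over three elements -/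
def addMul3 (x t a : ℕ) : ℕ :=
  (d3 x 0 + t * d3 a 0) % 3 + 3 * ((d3 x 1 + t * d3 a 1) % 3) + 9 * ((d3 x 2 + t * d3 a 2) % 3)
    + 27 * ((d3 x 3 + t * d3 a 3) % 3) + 81 * ((d3 x 4 + t * d3 a 4) % 3)
    + 243 * ((d3 x 5 + t * d3 a 5) % 3)

/-- the reflection at a vector of norm one -/
def reflN (a x : ℕ) : ℕ := addMul3 x (2 * bN a x) a

def negN (x : ℕ) : ℕ := addMul3 0 2 x

/-- the membership mask -/
def pB (c n : ℕ) : Bool := Nat.beq ((pMask c >>> n) &&& 1) 1

/-- a neighbour in a good frame -/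
def adjN (c v w : ℕ) : Bool :=
  !Nat.beq (hN w w) 0 && (Nat.beq (hN v w) 0 && [1, 2, 3].all fun a => pB c (v ^^^ smulN a w))

theorem mask_check : [0, 1, 2, 3].all (fun c =>
    (List.range 4096).all fun n => pB c n == PN c n) = true := by decide +kernel

theorem adj_check : [1, 7, 31].map (fun v => [0, 1, 2, 3].map fun c =>
    ((List.range 4096).filter (adjN c v)).length)
      = [[15, 15, 15, 15], [6, 15, 15, 15], [0, 15, 15, 15]] := by decide +kernel

theorem pt_check : [1, 2, 3].all (fun c => (List.range 126).all fun i =>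
    Nat.blt (ptN c i) 4096 && pB c (ptN c i) && Nat.beq (posN c (ptN c i)) i
      && Nat.blt (phiN c i) 729 && Nat.beq (qN (phiN c i)) 1
      && Nat.beq (phiPosN c (phiN c i)) i) = true := by decide +kernel

theorem pos_check : [1, 2, 3].all (fun c => (List.range 4096).all fun n => !pB c n ||
    (Nat.blt (posN c n) 126 && Nat.beq (hN n n) 0 &&
      [1, 2, 3].any (fun a => Nat.beq (smulN a (ptN c (posN c n))) n))) = true := by decide +kernel

theorem phi_check : [1, 2, 3].all (fun c => (List.range 729).all fun v => !Nat.beq (qN v) 1 ||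
    (Nat.blt (phiPosN c v) 126 && (Nat.beq (phiN c (phiPosN c v)) v ||
      Nat.beq (negN (phiN c (phiPosN c v))) v))) = true := by decide +kernel

theorem conj_check : [1, 2, 3].all (fun c => (List.range 126).all fun i => (List.range 126).all
    fun j => pB c (tvN (ptN c i) (ptN c j)) && Nat.beq (posN c (tvN (ptN c i) (ptN c j)))
      (phiPosN c (reflN (phiN c i) (phiN c j)))) = true := by decide +kernel

theorem line_check : [1, 2, 3].all (fun c => (List.range 126).all fun i =>
    [1, 2, 3].all (fun a => Nat.beq (posN c (smulN a (ptN c i))) i)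
      && Nat.beq (phiPosN c (negN (phiN c i))) i) = true := by decide +kernel

/-- the five kinds of isotropic vectors -/
def kindN : ℕ → ℕ → Bool
  | 0, n => Nat.beq (wtN n) 2
  | 4, n => Nat.beq (wtN n) 4
  | k, n => Nat.beq (prodN n) k

theorem kind_count : [0, 1, 2, 3, 4].map (fun k => ((List.range 4096).filter (kindN k)).length)
    = [135, 243, 243, 243, 1215] := by decide +kernel

/-- vectors of support two or six -/
def bigN (n : ℕ) : Bool := kindN 0 n || !Nat.beq (prodN n) 0

theorem degree_check : (Nat.beq ((List.range 4096).filter fun n => bigN n && Nat.beq (hN 3 n) 0).length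
    ((List.range 4096).filter fun n => bigN n && Nat.beq (hN 63 n) 0).length) = false := by
  decide +kernel

end CfsgLib.U43
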