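import Cfsg.Agent.ThreeTransp.U43.Model

/-!
Orders, centres and quotients of the three subgroups.
-/

set_option autoImplicit false
set_option linter.unusedSectionVars false

namespace CfsgLib.U43

open Cfsg CfsgLib.Unitary CfsgLib.ThreeTransp CfsgLib.ThreeTransp.PSU62
open scoped Classical commutatorElement Matrix

variable {F : Type*} [Field F] [Fintype F] (hF : Fintype.card F = 4)

theorem card_pomega6 : Nat.card (Cfsg.POmega (ZMod 3) Q6) = 3265920 := by
  have h := CfsgLib.OrthSmall.card_pomega_minus_of_three_le (F := ZMod 3) (q := 3) (ZMod.card 3) 3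
    le_rfl 0 1 aniso6
  change Nat.gcd 4 (3 ^ 3 + 1) * Nat.card (Cfsg.POmega (ZMod 3) Q6) = _ at h
  rw [show Nat.gcd 4 (3 ^ 3 + 1) = 4 by decide, Finset.prod_range_succ, Finset.prod_range_succ,
    Finset.prod_range_zero] at h
  omega

theorem card_sig_omega {c : ℕ} (hc : c ∈ [1, 2, 3]) :
    Nonempty (↥((Cfsg.Omega (ZMod 3) Q6).map (sig hc)) ≃* Cfsg.POmega (ZMod 3) Q6) := by
  obtain ⟨f, hf⟩ : ∃ f : ↥(Cfsg.Omega (ZMod 3) Q6) →* Equiv.Perm (Fin 126),
      f = (sig hc).comp (Cfsg.Omega (ZMod 3) Q6).subtype := ⟨_, rfl⟩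
  have hr : f.range = (Cfsg.Omega (ZMod 3) Q6).map (sig hc) := by
    rw [hf, MonoidHom.range_comp, Subgroup.range_subtype]
  have hk : f.ker = Subgroup.center ↥(Cfsg.Omega (ZMod 3) Q6) := by
    ext a
    rw [MonoidHom.mem_ker, hf, MonoidHom.comp_apply, Subgroup.coe_subtype, Subgroup.mem_center_iff]
    constructor
    · intro ha b
      obtain ⟨s, -, hs⟩ := scalar_of_sig hc ha
      refine Subtype.ext (Subtype.ext (Units.ext (Matrix.ext_of_mulVec_single fun k => ?_)))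
      show act6 ((b : ↥O6) * a) _ = act6 ((a : ↥O6) * b) _
      rw [act6_mul, act6_mul, hs, hs]
      exact Matrix.mulVec_smul _ _ _
    · intro ha
      refine Equiv.ext fun i => ?_
      show lineIx6 c (act6 a _) = i
      rcases CfsgLib.Classical.Orth.center_omega_pm hQ6 hn6 (Subgroup.mem_center_iff.2 ha) with h | h <;>
        rw [act6, h]
      · rw [Matrix.one_mulVec, (lineIx6_pt hc i).1]
      · rw [Matrix.neg_mulVec, Matrix.one_mulVec, (lineIx6_pt hc i).2]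
  exact ⟨(MulEquiv.subgroupCongr hr).symm.trans ((QuotientGroup.quotientKerEquivRange f).symm.trans
    (QuotientGroup.quotientMulEquivOfEq hk))⟩

include hF

theorem mono_cube {σ : Equiv.Perm (Fin 6)} (hσ : σ ^ 3 = 1) {t : Fin 6 → F} (ht : ∏ i, t i = 1)
    (hσt : ∀ i, t (σ i) = t i) : monoSU hF σ t ht ^ 3 = 1 := by
  refine sv_ext fun x => funext fun i => ?_
  have h0 : t i ≠ 0 := fun h => one_ne_zero (ht.symm.trans (Finset.prod_eq_zero (Finset.mem_univ i) h))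
  rw [pow_succ, pow_succ, pow_one, sv_mul, sv_mul, sv_monoSU hF, sv_monoSU hF, sv_monoSU hF, sv_one,
    hσt, hσt, hσt, show σ (σ (σ i)) = (σ ^ 3) i from rfl, hσ, Equiv.Perm.one_apply, ← mul_assoc,
    ← mul_assoc, show t i * t i * t i = t i ^ 3 by ring, F4.cube_eq_one hF h0, one_mul]

section cls

variable {c : ℕ} (hc : c ∈ [1, 2, 3])
include hc

/-- the commutator inside the stabiliser -/
noncomputable abbrev C3 : Subgroup ↥(stabP hF c) := ⁅R3 hF hc, R3 hF hc⁆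

theorem card_stabP : Nat.card ↥(stabP hF c) ≤ 19595520 := by
  have h := card_XSet hF (c_lt hc)
  rw [if_neg (c_ne hc)] at h
  refine le_trans ?_ h
  exact Nat.card_mono (Set.toFinite _) (stabP_le_XSet hF c)

theorem scal_mem_stabP (a : Fˣ) : scal hF a ∈ stabP hF c := fun v => by
  rw [sv_scal, P_smul hF a.ne_zero]

theorem C3_facts : (C3 hF hc).index = 2 ∧ Nat.card ↥(C3 hF hc) = 9797760 ∧
    Nat.card ↥(stabP hF c) = 19595520 ∧ (rho hF hc).ker ≤ C3 hF hc := by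
  haveI := R3_normal hF hc
  haveI : (C3 hF hc).Normal := inferInstance
  obtain ⟨e⟩ := card_sig_omega hc
  have himg : Nat.card ↥((C3 hF hc).map (rho hF hc)) = 3265920 := by
    rw [rho_comm hF hc, Nat.card_congr e.toEquiv, card_pomega6]
  have hker : Nat.card ↥(rho hF hc).ker = 3 := by
    rw [← card_center hF]
    refine Nat.card_congr ⟨fun g => ⟨g.1.1, (rho_eq_one hF hc).1 (MonoidHom.mem_ker.1 g.2)⟩,
      fun z => ⟨⟨z.1, ?_⟩, MonoidHom.mem_ker.2 ((rho_eq_one hF hc).2 z.2)⟩, fun _ => rfl, fun _ => rfl⟩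
    obtain ⟨a, ha⟩ : z.1 ∈ (scal hF).range := by rw [scal_range]; exact z.2
    exact ha ▸ scal_mem_stabP hF hc a
  obtain ⟨C', hC'⟩ : ∃ C', C3 hF hc ⊔ (rho hF hc).ker = C' := ⟨_, rfl⟩
  haveI : C'.Normal := hC' ▸ inferInstance
  have hcomap : C' = ((C3 hF hc).map (rho hF hc)).comap (rho hF hc) := by
    rw [Subgroup.comap_map_eq, hC']
  have hidx' : C'.index ≤ 2 := by
    have hS := card_stabP hF hc
    rw [← Subgroup.index_mul_card C'] at hS
    have hcard : Nat.card ↥C' = 9797760 := by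
      have h1 := Subgroup.card_mul_index (((rho hF hc).ker).subgroupOf C')
      have hle : (rho hF hc).ker ≤ C' := hC' ▸ le_sup_right
      rw [Nat.card_congr (Subgroup.subgroupOfEquivOfLe hle).toEquiv, hker] at h1
      have h2 : ((rho hF hc).ker.subgroupOf C').index = 3265920 := by
        rw [show (rho hF hc).ker.subgroupOf C' = ((rho hF hc).comp C'.subtype).ker from rfl,
          Subgroup.index_ker, MonoidHom.range_comp, Subgroup.range_subtype]
        rw [← himg, ← hC', Subgroup.map_sup, (Subgroup.map_eq_bot_iff _).2 le_rfl, sup_bot_eq]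
      rw [h2] at h1
      omega
    rw [hcard] at hS
    omega
  have hsq : ∀ x : ↥(stabP hF c), x ^ 3 = 1 → x ∈ C' := by
    intro x hx
    rcases Nat.lt_or_ge C'.index 2 with h | h
    · have h1 : C'.index = 1 := by
        have := C'.index_ne_zero_of_finite
        omega
      rw [Subgroup.index_eq_one.1 h1]
      exact Subgroup.mem_top _
    · have h2 := Subgroup.sq_mem_of_index_two (le_antisymm hidx' h) x
      have e : x = x ^ 2 * x ^ 2 := by
        rw [← pow_add, show 2 + 2 = 3 + 1 from rfl, pow_succ, hx, one_mul]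
      rw [e]
      exact mul_mem h2 h2
  have hcz : ∀ a ∈ C', ∀ b ∈ C', ⁅a, b⁆ ∈ C3 hF hc := by
    have hcent : ∀ k ∈ (rho hF hc).ker, ∀ g, Commute g k := fun k hk g => Subtype.ext
      (Subgroup.mem_center_iff.1 ((rho_eq_one hF hc).1 (MonoidHom.mem_ker.1 hk)) g)
    intro a ha b hb
    rw [← hC'] at ha hb
    obtain ⟨a₁, ha₁, k, hk, rfl⟩ := Subgroup.mem_sup_of_normal_right.1 ha
    obtain ⟨b₁, hb₁, l, hl, rfl⟩ := Subgroup.mem_sup_of_normal_right.1 hb
    have e : ⁅a₁ * k, b₁ * l⁆ = ⁅a₁, b₁⁆ := by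
      rw [commutatorElement_def, commutatorElement_def, mul_inv_rev, mul_inv_rev]
      calc a₁ * k * (b₁ * l) * (k⁻¹ * a₁⁻¹) * (l⁻¹ * b₁⁻¹)
          = a₁ * (k * (b₁ * l) * k⁻¹) * (a₁⁻¹ * l⁻¹) * b₁⁻¹ := by group
        _ = a₁ * (b₁ * l) * (a₁⁻¹ * l⁻¹) * b₁⁻¹ := by rw [← (hcent k hk (b₁ * l)).eq, mul_inv_cancel_right]
        _ = a₁ * b₁ * (l * a₁⁻¹) * l⁻¹ * b₁⁻¹ := by group
        _ = a₁ * b₁ * (a₁⁻¹ * l) * l⁻¹ * b₁⁻¹ := by rw [← (hcent l hl a₁⁻¹).eq]
        _ = a₁ * b₁ * a₁⁻¹ * b₁⁻¹ := by group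
    rw [e]
    exact mul_mem (mul_mem (mul_mem ha₁ hb₁) (inv_mem ha₁)) (inv_mem hb₁)
  have hkC : (rho hF hc).ker ≤ C3 hF hc := by
    intro k hk
    obtain ⟨u, hu⟩ : (k : ↥(SU 6 F 2)) ∈ (scal hF).range := by
      rw [scal_range]; exact (rho_eq_one hF hc).1 (MonoidHom.mem_ker.1 hk)
    obtain ⟨σ, hσ⟩ : ∃ σ : Equiv.Perm (Fin 6), σ = Equiv.swap 0 1 * Equiv.swap 1 2 * (Equiv.swap 3 4 * Equiv.swap 4 5) :=
      ⟨_, rfl⟩
    have hσ3 : σ ^ 3 = 1 := by subst hσ; decide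
    obtain ⟨t, htdef⟩ : ∃ t : Fin 6 → F, t = ![1, (u : F) ^ 2, u, 1, (u : F) ^ 2, u] := ⟨_, rfl⟩
    have hu3 := F4.cube_eq_one hF u.ne_zero
    have ht : ∏ i, t i = 1 := by
      rw [htdef]
      simp [Fin.prod_univ_six]
      linear_combination ((u : F) ^ 3 + 1) * hu3
    have htσ : ∀ i, t i = (u : F) * t (σ i) := by
      intro i
      subst hσ htdef
      fin_cases i <;> simp [Equiv.Perm.mul_apply, Equiv.swap_apply_def] <;>
        first | linear_combination hu3 | linear_combination -hu3 | ring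
    have h1 : (∏ _i : Fin 6, (1 : F)) = 1 := Finset.prod_const_one
    have ha : monoSU hF 1 t ht ∈ stabP hF c := monoSU_mem_stabP hF c 1 ht
    have hb : monoSU hF σ (fun _ => 1) h1 ∈ stabP hF c := monoSU_mem_stabP hF c σ h1
    have ha' : (⟨_, ha⟩ : ↥(stabP hF c)) ∈ C' :=
      hsq _ (Subtype.ext (mono_cube hF (one_pow 3) ht fun i => rfl))
    have hb' : (⟨_, hb⟩ : ↥(stabP hF c)) ∈ C' :=
      hsq _ (Subtype.ext (mono_cube hF hσ3 h1 fun i => rfl))
    have e : k = ⁅(⟨_, ha⟩ : ↥(stabP hF c)), ⟨_, hb⟩⁆ := by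
      refine eq_mul_inv_iff_mul_eq.2 (eq_mul_inv_iff_mul_eq.2 (Subtype.ext (sv_ext fun x => funext fun i => ?_)))
      simp only [Subgroup.coe_mul, sv_mul, ← hu, sv_scal, sv_monoSU hF, Pi.smul_apply, smul_eq_mul,
        Equiv.Perm.one_apply, one_mul]
      rw [htσ i, mul_assoc]
    rw [e]
    exact hcz _ ha' _ hb'
  have hCC' : C' = C3 hF hc := hC' ▸ sup_eq_left.2 hkC
  have hcard : Nat.card ↥(C3 hF hc) = 9797760 := by
    have h1 := Subgroup.card_mul_index ((rho hF hc).comp (C3 hF hc).subtype).ker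
    rw [Subgroup.index_ker, MonoidHom.range_comp, Subgroup.range_subtype, himg,
      show ((rho hF hc).comp (C3 hF hc).subtype).ker = (rho hF hc).ker.subgroupOf (C3 hF hc) from rfl,
      Nat.card_congr (Subgroup.subgroupOfEquivOfLe hkC).toEquiv, hker] at h1
    omega
  have hne : (C3 hF hc).index ≠ 1 := fun h => by
    refine tv_not_mem_K3 hF hc 0 ⟨⟨_, tv_mem_stabP hF hc 0⟩, ?_, rfl⟩
    have := Subgroup.index_eq_one.1 h
    show _ ∈ C3 hF hc
    rw [this]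
    exact Subgroup.mem_top _
  have hi : (C3 hF hc).index = 2 := by
    have := (C3 hF hc).index_ne_zero_of_finite
    rw [← hCC'] at hne this ⊢
    omega
  refine ⟨hi, hcard, ?_, hkC⟩
  rw [← Subgroup.card_mul_index (C3 hF hc), hcard, hi]

theorem K3_le : K3 hF hc ≤ stabP hF c := Subgroup.map_subtype_le _

theorem card_K3 : Nat.card ↥(K3 hF hc) = 9797760 :=
  ((Nat.card_congr (Subgroup.equivMapOfInjective _ _ (stabP hF c).subtype_injective).toEquiv).symm).trans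
    (C3_facts hF hc).2.1

theorem mem_K3_of_cube {g : ↥(SU 6 F 2)} (hg : g ∈ stabP hF c) (h3 : g ^ 3 = 1) :
    g ∈ K3 hF hc := by
  have h := Subgroup.sq_mem_of_index_two (C3_facts hF hc).1 ⟨g, hg⟩
  have e : (⟨g, hg⟩ : ↥(stabP hF c)) = ⟨g, hg⟩ ^ 2 * ⟨g, hg⟩ ^ 2 := by
    rw [← pow_add, show 2 + 2 = 3 + 1 from rfl, pow_succ,
      show (⟨g, hg⟩ : ↥(stabP hF c)) ^ 3 = 1 from Subtype.ext h3, one_mul]
  refine ⟨⟨g, hg⟩, ?_, rfl⟩
  rw [e]
  exact mul_mem h h

theorem diag_mem_K3 {t : Fin 6 → F} (ht : ∏ i, t i = 1) : monoSU hF 1 t ht ∈ K3 hF hc :=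
  mem_K3_of_cube hF hc (monoSU_mem_stabP hF c 1 ht) (mono_cube hF (one_pow 3) ht fun _ => rfl)

theorem threeCycle_mem_K3 {σ : Equiv.Perm (Fin 6)} (hσ : σ ^ 3 = 1) :
    monoSU hF σ (fun _ => 1) Finset.prod_const_one ∈ K3 hF hc :=
  mem_K3_of_cube hF hc (monoSU_mem_stabP hF c σ _) (mono_cube hF hσ _ fun _ => rfl)

theorem center_le_K3 : Subgroup.center ↥(SU 6 F 2) ≤ K3 hF hc := by
  intro z hz
  obtain ⟨a, ha⟩ : z ∈ (scal hF).range := by rw [scal_range]; exact hz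
  exact mem_K3_of_cube hF hc (ha ▸ scal_mem_stabP hF hc a) (center_cube hF hz)

theorem center_K3 : Subgroup.center ↥(K3 hF hc) = (Subgroup.center ↥(SU 6 F 2)).subgroupOf (K3 hF hc) := by
  refine le_antisymm (fun x hx => ?_) fun x hx => Subgroup.mem_center_iff.2 fun y =>
    Subtype.ext (Subgroup.mem_center_iff.1 (Subgroup.mem_subgroupOf.1 hx) y)
  rw [Subgroup.mem_subgroupOf]
  have hcom : ∀ g ∈ K3 hF hc, (x : ↥(SU 6 F 2)) * g = g * x := fun g hg =>
    (congrArg Subtype.val (Subgroup.mem_center_iff.1 hx ⟨g, hg⟩)).symm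
  obtain ⟨w, hw0, hw1, hw3, -⟩ := F4.exists_omega hF
  obtain ⟨d, hd⟩ := diag_of_commute hF hw0 hw1 hw3 (g := (x : ↥(SU 6 F 2))) fun a b hab =>
    hcom _ (diag_mem_K3 hF hc (pairVec_prod hw3 hab))
  refine scalar_mem_center ⟨d 0, ?_⟩
  rw [hd, Matrix.smul_one_eq_diagonal]
  refine congrArg Matrix.diagonal (funext fun i => ?_)
  have key : ∀ i, sv (x : ↥(SU 6 F 2)) (fun _ => 1) i = d i := fun i => by
    show (mat (x : ↥(SU 6 F 2)) *ᵥ _) i = _
    rw [hd, Matrix.mulVec_diagonal, mul_one]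
  by_cases hi : i = 0
  · rw [hi]
  obtain ⟨k, hk0, hki⟩ : ∃ k : Fin 6, k ≠ 0 ∧ k ≠ i := by clear hd key; revert i; decide
  obtain ⟨σ, hσ, hσi⟩ : ∃ σ : Equiv.Perm (Fin 6), σ ^ 3 = 1 ∧ σ i = 0 := by
    clear hd key
    refine ⟨Equiv.swap 0 i * Equiv.swap 0 k, ?_, ?_⟩
    · revert i k; decide
    · rw [Equiv.Perm.mul_apply, Equiv.swap_apply_of_ne_of_ne hi (Ne.symm hki), Equiv.swap_apply_right]
  have hone : sv (monoSU hF σ (fun _ => (1 : F)) Finset.prod_const_one) (fun _ => (1 : F)) = fun _ => 1 :=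
    funext fun j => by rw [sv_monoSU hF, one_mul]
  have h := congrArg (fun g => sv g (fun _ => (1 : F)) i) (hcom _ (threeCycle_mem_K3 hF hc hσ))
  simp only [sv_mul, hone] at h
  rw [sv_monoSU hF, one_mul, key, key, hσi] at h
  exact h

theorem K3_spec : Nat.card ↥(Subgroup.center ↥(K3 hF hc)) = 3 ∧
    ∀ (F9 : Type) [Field F9] [Fintype F9], Fintype.card F9 = 9 →
      Nonempty (↥(K3 hF hc) ⧸ Subgroup.center ↥(K3 hF hc) ≃* Cfsg.PSU 4 F9 3) := by
  refine ⟨?_, fun F9 _ _ hF9 => ?_⟩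
  · rw [center_K3, Nat.card_congr (Subgroup.subgroupOfEquivOfLe (center_le_K3 hF hc)).toEquiv,
      card_center hF]
  obtain ⟨ψ, hψ⟩ : ∃ ψ : ↥(K3 hF hc) →* Equiv.Perm (Fin 126),
      ψ = (rho hF hc).comp (Subgroup.inclusion (K3_le hF hc)) := ⟨_, rfl⟩
  have hr : ψ.range = (Cfsg.Omega (ZMod 3) Q6).map (sig hc) := by
    rw [hψ, MonoidHom.range_comp, Subgroup.inclusion_range, ← rho_comm hF hc]
    congr 1
    exact Subgroup.comap_map_eq_self_of_injective (stabP hF c).subtype_injective _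
  have hk : ψ.ker = Subgroup.center ↥(K3 hF hc) := by
    rw [center_K3]
    ext g
    rw [MonoidHom.mem_ker, hψ, MonoidHom.comp_apply, rho_eq_one, Subgroup.mem_subgroupOf]
    rfl
  obtain ⟨e⟩ := card_sig_omega hc
  obtain ⟨e'⟩ := CfsgLib.OrthSmall.pomega_six_minus_equiv (F := ZMod 3) (K := F9) (q := 3) (ZMod.card 3)
    (by rw [hF9]; norm_num) 0 1 aniso6
  exact ⟨(QuotientGroup.quotientMulEquivOfEq hk).symm.trans ((QuotientGroup.quotientKerEquivRange ψ).trans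
    ((MulEquiv.subgroupCongr hr).trans (e.trans e')))⟩

end cls

end CfsgLib.U43
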