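import Cfsg.Agent.ThreeTransp.U43.Torus

/-!
Invariant sets of isotropic vectors, the classification of the subgroups containing the even
monomial maps, and the distinctness of the three classes.
-/

set_option autoImplicit false
set_option linter.unusedSectionVars false

namespace CfsgLib.U43

open Cfsg CfsgLib.Unitary CfsgLib.ThreeTransp CfsgLib.ThreeTransp.PSU62
open scoped _root_.Classical

variable {F : Type*} [Field F] [Fintype F] (hF : Fintype.card F = 4)
include hF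

omit hF in
/-- the five kinds -/
def Kd (hF : Fintype.card F = 4) : ℕ → (Fin 6 → F) → Prop
  | 0, v => (supp v).card = 2
  | 4, v => (supp v).card = 4
  | k, v => ∏ i, v i = el hF k

omit hF in
noncomputable def kset (hF : Fintype.card F = 4) (k : ℕ) : Finset (Fin 6 → F) :=
  Finset.univ.filter (Kd hF k)

theorem Kd_vec {k : ℕ} (hk : k < 5) (n : ℕ) : Kd hF k (vec hF n) ↔ kindN k n = true := by
  obtain ⟨hp, hpe⟩ := prod_vec hF n
  interval_cases k <;> simp only [Kd, kindN, supp_vec, hpe, Nat.beq_eq]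
  all_goals exact ⟨el_inj hF hp (by norm_num), fun h => by rw [h]⟩

theorem card_kset {k : ℕ} (hk : k < 5) :
    (kset hF k).card = if k = 0 then 135 else if k = 4 then 1215 else 243 := by
  rw [kset, card_filter_vec hF (Kd hF k) (kindN k) fun n _ => Kd_vec hF hk n]
  have h := kind_count
  simp only [List.map_cons, List.map_nil, List.cons.injEq, and_true] at h
  obtain ⟨h0, h1, h2, h3, h4⟩ := h
  interval_cases k
  exacts [h0, h1, h2, h3, h4]

theorem Kd_card {k : ℕ} (hk : k < 5) {v : Fin 6 → F} (h : Kd hF k v) :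
    (supp v).card = if k = 0 then 2 else if k = 4 then 4 else 6 := by
  interval_cases k
  · exact h
  all_goals first
    | exact h
    | exact (prod_ne_zero_iff v).1 (by
        rw [show ∏ i, v i = _ from h]
        exact fun h0 => absurd ((el_eq_zero hF (by norm_num)).1 h0) (by norm_num))

theorem Kd_unique {j k : ℕ} (hj : j < 5) (hk : k < 5) {v : Fin 6 → F} (h : Kd hF j v)
    (h' : Kd hF k v) : j = k := by
  have e := (Kd_card hF hj h).symm.trans (Kd_card hF hk h')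
  interval_cases j <;> interval_cases k <;> first
    | rfl
    | exact absurd e (by decide)
    | exact el_inj hF (by norm_num) (by norm_num) (h.symm.trans h')

theorem exists_Kd {v : Fin 6 → F} (h0 : v ≠ 0) (hv : hm v v = 0) : ∃ k < 5, Kd hF k v := by
  have hle : (supp v).card ≤ 6 := le_trans (Finset.card_le_univ _) (by simp)
  have hne : (supp v).card ≠ 0 := fun h => h0 (funext fun i => by
    by_contra hi
    have : i ∈ supp v := Finset.mem_filter.2 ⟨Finset.mem_univ _, hi⟩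
    rw [Finset.card_eq_zero.1 h] at this
    simp at this)
  obtain ⟨m, hm'⟩ := (hm_self_eq_zero_iff hF v).1 hv
  rcases (show (supp v).card = 2 ∨ (supp v).card = 4 ∨ (supp v).card = 6 by omega) with h | h | h
  · exact ⟨0, by norm_num, h⟩
  · exact ⟨4, by norm_num, h⟩
  obtain ⟨a, ha, he⟩ := el_surj hF (∏ i, v i)
  have ha0 : a ≠ 0 := fun h0 => (prod_ne_zero_iff v).2 h (by subst h0; exact he.symm)
  refine ⟨a, by omega, ?_⟩
  interval_cases a
  exacts [absurd rfl ha0, he.symm, he.symm, he.symm]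

theorem Kd_transitive {k : ℕ} (hk : k < 5) {v w : Fin 6 → F} (hv : Kd hF k v) (hw : Kd hF k w) :
    ∃ (σ : Equiv.Perm (Fin 6)) (t : Fin 6 → F) (ht : ∏ i, t i = 1),
      Equiv.Perm.sign σ = 1 ∧ sv (monoSU hF σ t ht) v = w := by
  refine exists_mono hF ((Kd_card hF hk hv).trans (Kd_card hF hk hw).symm) fun h6 => ?_
  rw [Kd_card hF hk hv] at h6
  interval_cases k <;> first
    | exact absurd h6 (by decide)
    | exact hv.trans hw.symm

/-- A set of non-zero isotropic vectors invariant under the even monomial maps is a union of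
kinds. -/
theorem invariant_set {S : Finset (Fin 6 → F)} (hiso : ∀ v ∈ S, v ≠ 0 ∧ hm v v = 0)
    (hinv : ∀ (σ : Equiv.Perm (Fin 6)) (t : Fin 6 → F) (ht : ∏ i, t i = 1),
      Equiv.Perm.sign σ = 1 → ∀ v ∈ S, sv (monoSU hF σ t ht) v ∈ S) :
    ∃ J : Finset ℕ, J ⊆ Finset.range 5 ∧ (∀ v, v ∈ S ↔ ∃ k ∈ J, Kd hF k v) ∧
      S.card = ∑ k ∈ J, if k = 0 then 135 else if k = 4 then 1215 else 243 := by
  obtain ⟨J, hJ⟩ : ∃ J, (Finset.range 5).filter (fun k => ∃ v ∈ S, Kd hF k v) = J := ⟨_, rfl⟩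
  have hsub : J ⊆ Finset.range 5 := hJ ▸ Finset.filter_subset _ _
  have hiff : ∀ v, v ∈ S ↔ ∃ k ∈ J, Kd hF k v := by
    intro v
    constructor
    · intro hv
      obtain ⟨k, hk, hkv⟩ := exists_Kd hF (hiso v hv).1 (hiso v hv).2
      exact ⟨k, hJ ▸ Finset.mem_filter.2 ⟨Finset.mem_range.2 hk, v, hv, hkv⟩, hkv⟩
    · rintro ⟨k, hk, hkv⟩
      rw [← hJ, Finset.mem_filter, Finset.mem_range] at hk
      obtain ⟨hk5, w, hw, hkw⟩ := hk
      obtain ⟨σ, t, ht, hs, rfl⟩ := Kd_transitive hF hk5 hkw hkv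
      exact hinv σ t ht hs w hw
  refine ⟨J, hsub, hiff, ?_⟩
  have hS : S = J.biUnion (kset hF) := by
    ext v
    simp [hiff, kset]
  rw [hS, Finset.card_biUnion]
  · exact Finset.sum_congr rfl fun k hk => card_kset hF (Finset.mem_range.1 (hsub hk))
  · intro j hj k hk hjk
    rw [Function.onFun, Finset.disjoint_left]
    intro v h1 h2
    exact hjk (Kd_unique hF (Finset.mem_range.1 (hsub hj)) (Finset.mem_range.1 (hsub hk))
      (Finset.mem_filter.1 h1).2 (Finset.mem_filter.1 h2).2)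

omit hF in
theorem sum_table : ∀ J ∈ (Finset.range 5).powerset,
    ((∑ k ∈ J, if k = 0 then 135 else if k = 4 then 1215 else 243) = 378 →
      J = {0, 1} ∨ J = {0, 2} ∨ J = {0, 3}) ∧
    (0 ∈ J → (∑ k ∈ J, if k = 0 then 135 else if k = 4 then 1215 else 243) ∣ 9797760 →
      J = {0} ∨ J = {0, 1} ∨ J = {0, 2} ∨ J = {0, 3} ∨ J = {0, 1, 2, 3}) := by
  decide +kernel

theorem P_iff_Kd {c : ℕ} (hc : c ∈ [1, 2, 3]) (v : Fin 6 → F) :
    P hF c v ↔ ∃ k ∈ ({0, c} : Finset ℕ), Kd hF k v := by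
  simp only [List.mem_cons, List.not_mem_nil, or_false] at hc
  rcases hc with rfl | rfl | rfl <;> simp [P, Kd]

theorem vec_three : Kd hF 0 (vec hF 3) := (Kd_vec hF (by norm_num) 3).2 rfl

theorem P_vec_three (c : ℕ) : P hF c (vec hF 3) := Or.inl (vec_three hF)

theorem P_subset_inj {a c : ℕ} (hc : c ∈ [1, 2, 3]) (ha : a < 4)
    (h : ∀ v, P hF c v → P hF a v) : c = a := by
  obtain ⟨v, hv⟩ : ∃ v : Fin 6 → F, v = Function.update (fun _ => (1 : F)) 0 (el hF c) := ⟨_, rfl⟩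
  have hp : ∏ i, v i = el hF c := by
    rw [hv, Finset.prod_update_of_mem (Finset.mem_univ _)]
    simp
  have hne : el hF c ≠ 0 := fun h0 => c_ne hc ((el_eq_zero hF (c_lt hc)).1 h0)
  rcases h v (Or.inr ⟨c_ne hc, hp⟩) with h2 | ⟨-, h2⟩
  · rw [(prod_ne_zero_iff v).1 (by rw [hp]; exact hne)] at h2
    exact absurd h2 (by decide)
  · exact el_inj hF (c_lt hc) ha (hp.symm.trans h2)

theorem hm_vec_eq_zero (x y : ℕ) : hm (vec hF x) (vec hF y) = 0 ↔ hN x y = 0 := by
  rw [hm_vec hF]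
  refine el_eq_zero hF ?_
  have h : ∀ z, par z ≤ 1 := fun z => Nat.and_le_right
  have := h ((lo x &&& lo y) ^^^ (lo x &&& hi y) ^^^ (hi x &&& hi y))
  have := h ((lo x &&& hi y) ^^^ (hi x &&& lo y))
  unfold hN
  omega

omit hF in
theorem sv_eq_zero_iff {g : ↥(SU 6 F 2)} {v : Fin 6 → F} : sv g v = 0 ↔ v = 0 := by
  have hz : ∀ g : ↥(SU 6 F 2), sv g (0 : Fin 6 → F) = 0 := fun g => Matrix.mulVec_zero _
  exact ⟨fun h => by rw [← sv_inv_sv g v, h, hz], fun h => h ▸ hz g⟩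

theorem eq_K3_of_le {c : ℕ} (hc : c ∈ [1, 2, 3]) {K : Subgroup ↥(SU 6 F 2)} (hle : K ≤ stabP hF c)
    (hK : Nat.card ↥K = 9797760) : K = K3 hF hc := by
  obtain ⟨hidx, -, hst, -⟩ := C3_facts hF hc
  have h2 : (K.subgroupOf (stabP hF c)).index = 2 := by
    have h := Subgroup.card_mul_index (K.subgroupOf (stabP hF c))
    rw [Nat.card_congr (Subgroup.subgroupOfEquivOfLe hle).toEquiv, hK, hst] at h
    omega
  haveI := Subgroup.normal_of_index_eq_two h2
  have hC : C3 hF hc ≤ K.subgroupOf (stabP hF c) := by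
    refine Subgroup.commutator_le.2 fun a _ b _ => ?_
    rw [← QuotientGroup.eq_one_iff, ← QuotientGroup.mk'_apply, map_commutatorElement,
      commutatorElement_eq_one_iff_commute]
    haveI : IsCyclic (↥(stabP hF c) ⧸ K.subgroupOf (stabP hF c)) :=
      isCyclic_of_prime_card (p := 2) (by rw [← Subgroup.index_eq_card, h2])
    letI := IsCyclic.commGroup (α := ↥(stabP hF c) ⧸ K.subgroupOf (stabP hF c))
    exact Commute.all _ _
  refine (Subgroup.eq_of_le_of_card_ge ?_ (by rw [hK, card_K3 hF hc])).symm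
  rintro _ ⟨x, hx, rfl⟩
  exact hC hx

theorem classify {K : Subgroup ↥(SU 6 F 2)} (hK : Nat.card ↥K = 9797760)
    (hmono : ∀ (σ : Equiv.Perm (Fin 6)) (t : Fin 6 → F) (ht : ∏ i, t i = 1),
      Equiv.Perm.sign σ = 1 → monoSU hF σ t ht ∈ K) :
    ∃ (c : ℕ) (hc : c ∈ [1, 2, 3]), K = K3 hF hc ∧
      ∀ v, P hF c v → ∃ g ∈ K, sv g (vec hF 3) = v := by
  obtain ⟨O, hO⟩ : ∃ O, Finset.univ.filter (fun v => ∃ g ∈ K, sv g (vec hF 3) = v) = O := ⟨_, rfl⟩
  have hmemO : ∀ v, v ∈ O ↔ ∃ g ∈ K, sv g (vec hF 3) = v := fun v => by simp [← hO]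
  have hinvO : ∀ g ∈ K, ∀ v ∈ O, sv g v ∈ O := fun g hg v hv => by
    obtain ⟨k, hk, rfl⟩ := (hmemO v).1 hv
    exact (hmemO _).2 ⟨g * k, mul_mem hg hk, sv_mul g k _⟩
  obtain ⟨hp0, hp1⟩ := P_isotropic hF (c := 1) (by norm_num) (P_vec_three hF 1)
  have hiso : ∀ v ∈ O, v ≠ 0 ∧ hm v v = 0 := fun v hv => by
    obtain ⟨g, -, rfl⟩ := (hmemO v).1 hv
    exact ⟨fun h => hp0 (sv_eq_zero_iff.1 h), (sv_herm g _ _).trans hp1⟩
  obtain ⟨J, hJ, hmem, hcard⟩ := invariant_set hF hiso fun σ t ht hs => hinvO _ (hmono σ t ht hs)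
  have h0J : 0 ∈ J := by
    obtain ⟨k, hk, hkv⟩ := (hmem _).1 ((hmemO _).2 ⟨1, one_mem K, sv_one _⟩)
    rwa [Kd_unique hF (Finset.mem_range.1 (hJ hk)) (by norm_num) hkv (vec_three hF)] at hk
  have hdvd : O.card ∣ 9797760 := by
    have hsm : ∀ (g : ↥K) (v : Fin 6 → F), g • v = sv (g : ↥(SU 6 F 2)) v := fun g v => rfl
    have he : (MulAction.orbit ↥K (vec hF 3)).ncard = O.card := by
      rw [← Set.ncard_coe_finset]
      congr 1
      ext v
      rw [Finset.mem_coe, hmemO, MulAction.mem_orbit_iff]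
      exact ⟨fun ⟨g, hg⟩ => ⟨g, g.2, hg⟩, fun ⟨g, hg, hgv⟩ => ⟨⟨g, hg⟩, hgv⟩⟩
    rw [← he, ← hK]
    have hix := MulAction.index_stabilizer (G := ↥K) (x := vec hF 3)
    have e := Subgroup.index_dvd_card (MulAction.stabilizer ↥K (vec hF 3))
    rw [hix] at e
    convert e
  have h378 : ∀ c, (hc : c ∈ [1, 2, 3]) → J = {0, c} → ∃ (c : ℕ) (hc : c ∈ [1, 2, 3]),
      K = K3 hF hc ∧ ∀ v, P hF c v → ∃ g ∈ K, sv g (vec hF 3) = v := by
    intro c hc hJc
    have hPO : ∀ v, P hF c v ↔ v ∈ O := fun v => by rw [P_iff_Kd hF hc, hmem, hJc]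
    refine ⟨c, hc, eq_K3_of_le hF hc (fun g hg v => ?_) hK, fun v hv => (hmemO v).1 ((hPO v).1 hv)⟩
    rw [hPO, hPO]
    exact ⟨fun h => by simpa [sv_inv_sv] using hinvO _ (inv_mem hg) _ h, hinvO g hg v⟩
  rcases (sum_table J (Finset.mem_powerset.2 hJ)).2 h0J (hcard ▸ hdvd) with h | h | h | h | h
  · exfalso
    have hsub : (K : Set ↥(SU 6 F 2)) ⊆ XSet hF 0 := fun g hg v hv => by
      have hvO : v ∈ O := (hmem v).2 ⟨0, h0J, hv⟩
      obtain ⟨k, hk, hkv⟩ := (hmem _).1 (hinvO g hg v hvO)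
      rw [h, Finset.mem_singleton] at hk
      subst hk
      exact Or.inl hkv
    have h1 := Nat.card_mono (Set.toFinite _) hsub
    have h2 := card_XSet hF (c := 0) (by norm_num)
    rw [if_pos rfl] at h2
    change Nat.card ↥K ≤ _ at h1
    omega
  · exact h378 1 (by simp) h
  · exact h378 2 (by simp) h
  · exact h378 3 (by simp) h
  exfalso
  have hOq : ∀ n, vec hF n ∈ O ↔ bigN n = true := fun n => by
    rw [hmem, h]
    obtain ⟨hp, hpe⟩ := prod_vec hF n
    simp only [Finset.mem_insert, Finset.mem_singleton, exists_eq_or_imp, exists_eq_left,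
      Kd_vec hF (show (0 : ℕ) < 5 by norm_num), Kd_vec hF (show (1 : ℕ) < 5 by norm_num),
      Kd_vec hF (show (2 : ℕ) < 5 by norm_num), Kd_vec hF (show (3 : ℕ) < 5 by norm_num),
      bigN, Bool.or_eq_true, Bool.not_eq_true', ← Bool.not_eq_true]
    simp only [kindN, Nat.beq_eq]
    omega
  have hcount : ∀ p : ℕ, (O.filter fun x => hm (vec hF p) x = 0).card =
      ((List.range 4096).filter fun n => bigN n && Nat.beq (hN p n) 0).length := fun p => by
    rw [show O.filter (fun x => hm (vec hF p) x = 0) =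
      Finset.univ.filter (fun x => x ∈ O ∧ hm (vec hF p) x = 0) by ext; simp]
    refine Eq.trans ?_ (card_filter_vec hF (fun x => x ∈ O ∧ hm (vec hF p) x = 0) _ fun n _ => ?_)
    · exact congrArg Finset.card (Finset.ext fun v => by simp)
    rw [hOq, hm_vec_eq_zero hF, Bool.and_eq_true, Nat.beq_eq]
  obtain ⟨k, hk, hkq⟩ := (hmemO _).1 ((hOq 63).2 (by decide))
  have hdeg : (O.filter fun x => hm (vec hF 3) x = 0).card =
      (O.filter fun x => hm (vec hF 63) x = 0).card := by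
    refine Finset.card_bij (fun x _ => sv k x) (fun x hx => ?_) ?_ fun y hy => ?_
    · simp only [Finset.mem_filter] at hx ⊢
      refine ⟨hinvO k hk x hx.1, ?_⟩
      rw [← hkq, show hm (sv k _) (sv k x) = _ from sv_herm k _ _]
      exact hx.2
    · intro a _ b _ e
      simpa [sv_inv_sv] using congrArg (sv k⁻¹) e
    · refine ⟨sv k⁻¹ y, ?_, sv_sv_inv _ _⟩
      simp only [Finset.mem_filter] at hy ⊢
      refine ⟨hinvO _ (inv_mem hk) y hy.1, ?_⟩
      rw [← sv_inv_sv k (vec hF 3), hkq, show hm (sv k⁻¹ _) (sv k⁻¹ y) = _ from sv_herm k⁻¹ _ _]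
      exact hy.2
  rw [hcount, hcount] at hdeg
  have := degree_check
  rw [hdeg, Nat.beq_refl] at this
  exact Bool.false_ne_true this.symm

theorem K3_transitive {c : ℕ} (hc : c ∈ [1, 2, 3]) {v : Fin 6 → F} (hv : P hF c v) :
    ∃ g ∈ K3 hF hc, sv g (vec hF 3) = v := by
  obtain ⟨a, ha, -, htr⟩ := classify hF (card_K3 hF hc) fun σ t ht hs => even_mem_K3 hF hc hs ht
  have hac : a = c := P_subset_inj hF ha (c_lt hc) fun w hw => by
    obtain ⟨g, hg, rfl⟩ := htr w hw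
    exact (K3_le hF hc hg _).2 (P_vec_three hF c)
  subst hac
  exact htr v hv

theorem K3_inj {a d : ℕ} (ha : a ∈ [1, 2, 3]) (hd : d ∈ [1, 2, 3]) (h : K3 hF ha = K3 hF hd) :
    a = d :=
  P_subset_inj hF ha (c_lt hd) fun v hv => by
    obtain ⟨g, hg, rfl⟩ := K3_transitive hF ha hv
    exact (K3_le hF hd (h ▸ hg) _).2 (P_vec_three hF d)

theorem not_conjugate {c d : ℕ} (hc : c ∈ [1, 2, 3]) (hd : d ∈ [1, 2, 3]) (hcd : c ≠ d) :
    ¬ ∃ g : ↥(SU 6 F 2), (K3 hF hc).map (MulAut.conj g).toMonoidHom = K3 hF hd := by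
  rintro ⟨g, hg⟩
  obtain ⟨S, hS⟩ : ∃ S, Finset.univ.filter (fun v => P hF c (sv g⁻¹ v)) = S := ⟨_, rfl⟩
  have hmemS : ∀ v, v ∈ S ↔ P hF c (sv g⁻¹ v) := fun v => by simp [← hS]
  have hinv : ∀ k ∈ K3 hF hd, ∀ v, sv k v ∈ S ↔ v ∈ S := by
    intro k hk v
    rw [← hg] at hk
    obtain ⟨k', hk', rfl⟩ := hk
    rw [hmemS, hmemS, MulEquiv.coe_toMonoidHom, MulAut.conj_apply, sv_mul, sv_mul, sv_inv_sv]
    exact K3_le hF hc hk' _
  have hiso : ∀ v ∈ S, v ≠ 0 ∧ hm v v = 0 := fun v hv => by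
    obtain ⟨h0, h1⟩ := P_isotropic hF (c_lt hc) ((hmemS v).1 hv)
    exact ⟨fun h => h0 (sv_eq_zero_iff.2 h), by
      rwa [show hm (sv g⁻¹ v) (sv g⁻¹ v) = _ from sv_herm g⁻¹ _ _] at h1⟩
  obtain ⟨J, hJ, hmem, hcard⟩ := invariant_set hF hiso fun σ t ht hs v hv =>
    (hinv _ (even_mem_K3 hF hd hs ht) v).2 hv
  have h378 : S.card = 378 := by
    have hcs : S.card = ((Finset.univ : Finset (Fin 6 → F)).filter (P hF c)).card := by
      refine Finset.card_bij (fun v _ => sv g⁻¹ v) (fun v hv => by simpa using (hmemS v).1 hv) ?_ ?_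
      · intro a _ b _ e
        simpa [sv_sv_inv] using congrArg (sv g) e
      · intro w hw
        exact ⟨sv g w, (hmemS _).2 (by rw [sv_inv_sv]; simpa using hw), sv_inv_sv _ _⟩
    rw [hcs, show (Finset.univ : Finset (Fin 6 → F)).filter (P hF c) = kset hF 0 ∪ kset hF c by
      ext v; simp [kset, P_iff_Kd hF hc]]
    rw [Finset.card_union_of_disjoint (s := kset hF 0) (t := kset hF c) (Finset.disjoint_left.2 fun v h1 h2 => c_ne hc
      (Kd_unique hF (by norm_num) (by have := c_lt hc; omega) (Finset.mem_filter.1 h1).2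
        (Finset.mem_filter.1 h2).2).symm), card_kset hF (by norm_num),
      card_kset hF (by have := c_lt hc; omega), if_pos rfl, if_neg (c_ne hc), if_neg (by have := c_lt hc; omega)]
  have key : ∀ a, (ha : a ∈ [1, 2, 3]) → J = {0, a} → False := by
    intro a ha hJa
    have hPS : ∀ v, P hF a v ↔ v ∈ S := fun v => by rw [P_iff_Kd hF ha, hmem, hJa]
    have had : a = d := (K3_inj hF hd ha (eq_K3_of_le hF ha
      (fun k hk v => by rw [hPS, hPS]; exact hinv k hk v) (card_K3 hF hd))).symm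
    subst had
    have hgX : g ∈ XSet hF a := fun v hv => (hPS _).2 ((hmemS _).2 (by rw [sv_inv_sv]; exact Or.inl hv))
    have hX := card_XSet hF (c_lt ha)
    rw [if_neg (c_ne ha), ← (C3_facts hF ha).2.2.1, Nat.card_coe_set_eq] at hX
    have heq : (stabP hF a : Set ↥(SU 6 F 2)) = XSet hF a :=
      Set.eq_of_subset_of_ncard_le (stabP_le_XSet hF a)
        (hX.trans (le_of_eq (Nat.card_coe_set_eq _))) (Set.toFinite _)
    have hgs : g ∈ stabP hF a := by rw [← SetLike.mem_coe, heq]; exact hgX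
    exact hcd (P_subset_inj hF hc (c_lt ha) fun w hw =>
      (hgs w).1 ((hPS _).2 ((hmemS _).2 (by rwa [sv_inv_sv]))))
  rcases (sum_table J (Finset.mem_powerset.2 hJ)).1 (hcard ▸ h378) with h | h | h
  exacts [key 1 (by simp) h, key 2 (by simp) h, key 3 (by simp) h]

theorem classify_quotient {K : Subgroup ↥(SU 6 F 2)} (hZ : Nat.card ↥(Subgroup.center ↥K) = 3)
    (hc : (1 : ℕ) ∈ [1, 2, 3])
    (φ : ↥K ⧸ Subgroup.center ↥K ≃* ↥(K3 hF hc) ⧸ Subgroup.center ↥(K3 hF hc)) :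
    ∃ (c : ℕ) (hc : c ∈ [1, 2, 3]) (g : ↥(SU 6 F 2)),
      K.map (MulAut.conj g).toMonoidHom = K3 hF hc := by
  obtain ⟨h, -, hK, hmono⟩ := exists_torus hF hZ hc φ
  have hK' : Nat.card ↥(K.map (MulAut.conj h).toMonoidHom) = 9797760 := by
    rw [Nat.card_congr (Subgroup.equivMapOfInjective _ _ (MulAut.conj h).injective).symm.toEquiv, hK]
  obtain ⟨c, hc', he, -⟩ := classify hF hK' hmono
  exact ⟨c, hc', h, he⟩

end CfsgLib.U43
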