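import Cfsg.Agent.ThreeTransp.U43.Facts

/-!
The diagonal subgroup of `SU(6, 2)` and the monomial elements of a subgroup containing it.
-/

set_option autoImplicit false
set_option linter.unusedSectionVars false

namespace CfsgLib.U43

open Cfsg CfsgLib.Unitary CfsgLib.ThreeTransp CfsgLib.ThreeTransp.PSU62
open scoped Classical Matrix

variable {F : Type*} [Field F] [Fintype F] (hF : Fintype.card F = 4)

/-- six coordinates with product one from five -/
noncomputable def tup (t : Fin 5 → Fˣ) : Fin 6 → Fˣ := Fin.snoc t (∏ i, t i)⁻¹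

theorem tup_prod (t : Fin 5 → Fˣ) : ∏ i, ((tup t i : Fˣ) : F) = 1 := by
  rw [← Units.coe_prod, Fin.prod_univ_castSucc]
  simp only [tup, Fin.snoc_last, Fin.snoc_castSucc, mul_inv_cancel, Units.val_one]

theorem tup_mul (s t : Fin 5 → Fˣ) : tup (s * t) = tup s * tup t := by
  funext i
  refine Fin.lastCases ?_ (fun j => ?_) i
  · simp only [tup, Pi.mul_apply, Fin.snoc_last, Finset.prod_mul_distrib, mul_inv_rev]
    rw [mul_comm]
  · simp only [tup, Pi.mul_apply, Fin.snoc_castSucc]

include hF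

/-- the diagonal embedding -/
noncomputable def dl : (Fin 5 → Fˣ) →* ↥(SU 6 F 2) :=
  MonoidHom.mk' (fun t => monoSU hF 1 (fun i => ((tup t i : Fˣ) : F)) (tup_prod t))
    fun s t => sv_ext fun x => funext fun i => by
      simp only [sv_mul, sv_monoSU hF, Equiv.Perm.one_apply, tup_mul, Pi.mul_apply, Units.val_mul,
        mul_assoc]

theorem sv_dl (t : Fin 5 → Fˣ) (x : Fin 6 → F) (i : Fin 6) :
    sv (dl hF t) x i = ((tup t i : Fˣ) : F) * x i := by
  simp only [dl, MonoidHom.mk'_apply, sv_monoSU hF, Equiv.Perm.one_apply]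

theorem dl_injective : Function.Injective (dl hF) := by
  intro s t h
  funext j
  have := congrFun (congrArg (fun g => sv g (fun _ => (1 : F))) h) j.castSucc
  simp only [sv_dl, mul_one] at this
  simpa [tup] using Units.ext this

theorem dl_range_iff {g : ↥(SU 6 F 2)} :
    g ∈ (dl hF).range ↔ ∃ t : Fin 6 → F, ∀ x i, sv g x i = t i * x i := by
  refine ⟨fun ⟨t, h⟩ => ⟨fun i => tup t i, fun x i => by rw [← h, sv_dl]⟩, fun ⟨t, ht⟩ => ?_⟩
  have hd : mat g = Matrix.diagonal t := by
    ext i j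
    have := ht (Pi.single j 1) i
    rw [show sv g (Pi.single j 1) i = mat g i j by simp [sv, mat]] at this
    rw [this, Matrix.diagonal_apply, Pi.single_apply]
    split <;> simp
  have hp : ∏ i, t i = 1 := by
    have h := (g : Matrix.SpecialLinearGroup (Fin 6) F).2
    change (mat g).det = 1 at h
    rwa [hd, Matrix.det_diagonal] at h
  have hne : ∀ i, t i ≠ 0 := fun i h => one_ne_zero (hp.symm.trans (Finset.prod_eq_zero (Finset.mem_univ i) h))
  refine ⟨fun j => Units.mk0 (t j.castSucc) (hne _), sv_ext fun x => funext fun i => ?_⟩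
  rw [sv_dl, ht]
  congr 1
  refine Fin.lastCases ?_ (fun j => ?_) i
  · simp only [tup, Fin.snoc_last]
    rw [Units.val_inv_eq_inv_val, Units.coe_prod]
    refine (eq_inv_of_mul_eq_one_left ?_).symm
    simp only [Units.val_mk0]
    rw [mul_comm, ← Fin.prod_univ_castSucc, hp]
  · simp [tup]

theorem monoSU_one_mem_dl {t : Fin 6 → F} (ht : ∏ i, t i = 1) : monoSU hF 1 t ht ∈ (dl hF).range :=
  (dl_range_iff hF).2 ⟨t, fun x i => by rw [sv_monoSU hF, Equiv.Perm.one_apply]⟩

theorem card_dl : Nat.card ↥((dl hF).range) = 243 := by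
  rw [Nat.card_congr (MonoidHom.ofInjective (dl_injective hF)).symm.toEquiv, Nat.card_fun,
    Nat.card_units, Nat.card_eq_fintype_card, Nat.card_eq_fintype_card, hF, Fintype.card_fin]
  rfl

omit hF in
/-- an element is monomial -/
def IsMono (g : ↥(SU 6 F 2)) (σ : Equiv.Perm (Fin 6)) : Prop :=
  ∃ t : Fin 6 → F, ∀ x i, sv g x i = t i * x (σ i)

theorem IsMono.unique {g : ↥(SU 6 F 2)} {σ τ : Equiv.Perm (Fin 6)} (h : IsMono g σ) (h' : IsMono g τ) :
    σ = τ := by
  obtain ⟨t, ht⟩ := h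
  obtain ⟨s, hs⟩ := h'
  refine Equiv.ext fun i => ?_
  by_contra hne
  have h1 := ht (Pi.single (σ i) 1) i
  rw [hs, Pi.single_eq_same, Pi.single_eq_of_ne (Ne.symm hne), mul_zero, mul_one] at h1
  have hz : ∀ x, sv g x i = 0 := fun x => by rw [ht, ← h1, zero_mul]
  have := hz (sv g⁻¹ (Pi.single i 1))
  rw [sv_sv_inv, Pi.single_eq_same] at this
  exact one_ne_zero this

theorem IsMono.mul {g h : ↥(SU 6 F 2)} {σ τ : Equiv.Perm (Fin 6)} (hg : IsMono g σ) (hh : IsMono h τ) :
    IsMono (g * h) (τ * σ) := by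
  obtain ⟨t, ht⟩ := hg
  obtain ⟨s, hs⟩ := hh
  exact ⟨fun i => t i * s (σ i), fun x i => by rw [sv_mul, ht, hs, Equiv.Perm.mul_apply, mul_assoc]⟩

theorem isMono_monoSU (σ : Equiv.Perm (Fin 6)) {t : Fin 6 → F} (ht : ∏ i, t i = 1) :
    IsMono (monoSU hF σ t ht) σ := ⟨t, sv_monoSU hF σ ht⟩

/-- a monomial element equals a monomial map -/
theorem IsMono.exists_eq {g : ↥(SU 6 F 2)} {σ : Equiv.Perm (Fin 6)} (hg : IsMono g σ) :
    ∃ (t : Fin 6 → F) (ht : ∏ i, t i = 1), g = monoSU hF σ t ht := by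
  obtain ⟨t, ht⟩ := hg
  have hm : mat g = PSU62.monoMat σ t := Matrix.ext_of_mulVec_single fun j => funext fun i => by
    rw [PSU62.monoMat_mulVec]
    exact ht _ i
  have hp : ∏ i, t i = 1 := by
    have h := (g : Matrix.SpecialLinearGroup (Fin 6) F).2
    change (mat g).det = 1 at h
    rw [hm, PSU62.monoMat, Matrix.det_mul, Matrix.det_diagonal, Matrix.det_permutation] at h
    rcases Int.units_eq_one_or (Equiv.Perm.sign σ) with e | e <;> rw [e] at h <;>
      simpa [F4.neg_eq hF] using h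
  exact ⟨t, hp, mat_inj hm⟩

/-- normalising the diagonal subgroup means monomial -/
theorem isMono_iff_normalizes {g : ↥(SU 6 F 2)} :
    (∃ σ, IsMono g σ) ↔ g ∈ Subgroup.normalizer (((dl hF).range : Subgroup _) : Set _) := by
  constructor
  · rintro ⟨σ, hσ⟩
    obtain ⟨t, ht, hg⟩ := hσ.exists_eq hF
    have key : ∀ d ∈ (dl hF).range, g * d * g⁻¹ ∈ (dl hF).range := by
      intro d hd
      obtain ⟨s, hs⟩ := (dl_range_iff hF).1 hd
      refine (dl_range_iff hF).2 ⟨fun i => s (σ i), fun x i => ?_⟩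
      obtain ⟨y, rfl⟩ : ∃ y, sv g y = x := ⟨_, sv_sv_inv g x⟩
      rw [sv_mul, sv_inv_sv, sv_mul, hg, sv_monoSU hF, hs, sv_monoSU hF]
      ring
    exact (Subgroup.mem_normalizer_iff_map_conj_eq).2 (Subgroup.eq_of_le_of_card_ge
      (by rintro _ ⟨d, hd, rfl⟩; exact key d hd)
      (le_of_eq (Nat.card_congr (Subgroup.equivMapOfInjective _ _ (MulAut.conj g).injective).toEquiv)))
  · intro hg
    obtain ⟨w, hw0, hw1, hw3, -⟩ := F4.exists_omega hF
    have hline : ∀ i, ∃ j : Fin 6, ∀ k, k ≠ j → sv g (Pi.single i 1) k = 0 := by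
      intro i
      by_contra hcon
      push Not at hcon
      obtain ⟨a, -, ha⟩ := hcon 0
      obtain ⟨b, hb, hb'⟩ := hcon a
      have hd := monoSU_one_mem_dl hF (pairVec_prod hw3 hb)
      have := (Subgroup.mem_normalizer_iff''.1 hg _).1 hd
      obtain ⟨t, ht⟩ := (dl_range_iff hF).1 this
      have h1 : sv (monoSU hF 1 (pairVec w b a) (pairVec_prod hw3 hb)) (sv g (Pi.single i 1)) =
          t i • sv g (Pi.single i 1) := by
        rw [← sv_smul]
        have h2 : sv (g⁻¹ * monoSU hF 1 (pairVec w b a) (pairVec_prod hw3 hb) * g) (Pi.single i 1) =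
            t i • Pi.single i 1 := funext fun k => by
          rw [ht, Pi.smul_apply, smul_eq_mul]
          by_cases h : k = i
          · rw [h]
          · simp [h]
        rw [← h2, sv_mul, sv_mul, sv_sv_inv]
      have e1 := congrFun h1 b
      have e2 := congrFun h1 a
      simp only [sv_monoSU hF, Equiv.Perm.one_apply, pairVec, if_true, Pi.smul_apply, smul_eq_mul,
        if_neg (Ne.symm hb)] at e1 e2
      have e3 := mul_right_cancel₀ hb' e1
      have e4 := mul_right_cancel₀ ha e2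
      rw [← e3] at e4
      exact hw1 (mul_right_cancel₀ hw0 (by rw [one_mul, ← pow_two, e4]))
    choose π hπ using hline
    have hne : ∀ i, sv g (Pi.single i 1) (π i) ≠ 0 := by
      intro i h
      have h0 : sv g (Pi.single i 1) = 0 := funext fun k => by
        by_cases hk : k = π i
        · rw [hk, h]; rfl
        · exact hπ i k hk
      have := congrArg (sv g⁻¹) h0
      rw [sv_inv_sv, show sv g⁻¹ (0 : Fin 6 → F) = 0 from Matrix.mulVec_zero _] at this
      simpa using congrFun this i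
    have hinj : Function.Injective π := by
      intro a b hab
      by_contra hne'
      have h1 : hm (sv g (Pi.single a 1)) (sv g (Pi.single b 1)) = 0 :=
        (sv_herm g _ _).trans ((hm_ei a b).trans (if_neg hne'))
      rw [hm, hermForm, Finset.sum_eq_single (π a) (fun k _ hk => by rw [hπ a k hk, zero_mul])
        (fun h => absurd (Finset.mem_univ _) h), hab] at h1
      exact mul_ne_zero (hab ▸ hne a) (pow_ne_zero _ (hne b)) h1
    obtain ⟨σ, hσ⟩ : ∃ σ : Equiv.Perm (Fin 6), ∀ i, π (σ i) = i :=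
      ⟨(Equiv.ofBijective π (Finite.injective_iff_bijective.1 hinj)).symm,
        fun i => (Equiv.ofBijective π _).apply_symm_apply i⟩
    refine ⟨σ, fun i => sv g (Pi.single (σ i) 1) i, fun x i => ?_⟩
    show (mat g *ᵥ x) i = _
    rw [Matrix.mulVec, dotProduct, Finset.sum_eq_single (σ i) (fun k _ hk => ?_)
      (fun h => absurd (Finset.mem_univ _) h)]
    · simp [sv, mat]
    · rw [show mat g i k = sv g (Pi.single k 1) i by simp [sv, mat],
        hπ k i (fun h => hk (hinj (by rw [hσ, ← h]))), zero_mul]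

/-- the monomial elements of a subgroup containing the diagonal one -/
theorem card_monomial {K : Subgroup ↥(SU 6 F 2)} (hT : (dl hF).range ≤ K) :
    ∃ P : Subgroup (Equiv.Perm (Fin 6)), (∀ σ, σ ∈ P ↔ ∃ g ∈ K, IsMono g σ⁻¹) ∧
      Nat.card ↥(K ⊓ Subgroup.normalizer (((dl hF).range : Subgroup _) : Set _) : Subgroup _) =
        243 * Nat.card ↥P := by
  obtain ⟨N, hN⟩ : ∃ N, K ⊓ Subgroup.normalizer (((dl hF).range : Subgroup _) : Set _) = N := ⟨_, rfl⟩
  have hmem : ∀ g : ↥N, ∃ σ, IsMono (g : ↥(SU 6 F 2)) σ := fun g => by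
    have h : (g : ↥(SU 6 F 2)) ∈ K ⊓ Subgroup.normalizer (((dl hF).range : Subgroup _) : Set _) := hN ▸ g.2
    exact (isMono_iff_normalizes hF).2 h.2
  choose p hp using hmem
  obtain ⟨f, hf⟩ : ∃ f : ↥N →* Equiv.Perm (Fin 6), ∀ g, f g = (p g)⁻¹ :=
    ⟨MonoidHom.mk' (fun g => (p g)⁻¹) fun a b => by
      rw [← mul_inv_rev, inv_inj]
      exact IsMono.unique hF (hp (a * b)) (IsMono.mul hF (hp a) (hp b)), fun g => rfl⟩
  refine ⟨f.range, fun σ => ⟨?_, ?_⟩, ?_⟩
  · rintro ⟨g, rfl⟩
    have hg : (g : ↥(SU 6 F 2)) ∈ K ⊓ Subgroup.normalizer (((dl hF).range : Subgroup _) : Set _) := by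
      rw [hN]; exact g.2
    refine ⟨g, hg.1, ?_⟩
    rw [hf, inv_inv]
    exact hp g
  · rintro ⟨g, hg, hm'⟩
    have hgN : g ∈ N := hN ▸ ⟨hg, (isMono_iff_normalizes hF).1 ⟨_, hm'⟩⟩
    exact ⟨⟨g, hgN⟩, by rw [hf, IsMono.unique hF (hp ⟨g, hgN⟩) hm', inv_inv]⟩
  · have hk : f.ker = (dl hF).range.subgroupOf N := by
      ext g
      rw [MonoidHom.mem_ker, hf, inv_eq_one, Subgroup.mem_subgroupOf, dl_range_iff]
      constructor
      · intro h
        obtain ⟨t, ht⟩ := hp g
        exact ⟨t, fun x i => by rw [ht, h, Equiv.Perm.one_apply]⟩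
      · rintro ⟨t, ht⟩
        exact IsMono.unique hF (hp g) ⟨t, fun x i => by rw [ht, Equiv.Perm.one_apply]⟩
    have h1 := Subgroup.card_mul_index f.ker
    rw [Subgroup.index_ker, hk, Nat.card_congr (Subgroup.subgroupOfEquivOfLe
      (hN ▸ le_inf hT Subgroup.le_normalizer)).toEquiv, card_dl hF] at h1
    rw [hN, ← h1]

/-- even permutations occur in the model -/
theorem even_mem_K3 {c : ℕ} (hc : c ∈ [1, 2, 3]) {σ : Equiv.Perm (Fin 6)}
    (hσ : Equiv.Perm.sign σ = 1) {t : Fin 6 → F} (ht : ∏ i, t i = 1) :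
    monoSU hF σ t ht ∈ K3 hF hc := by
  have hperm : ∀ τ ∈ alternatingGroup (Fin 6),
      monoSU hF τ (fun _ => (1 : F)) Finset.prod_const_one ∈ K3 hF hc := by
    intro τ hτ
    rw [← Equiv.Perm.closure_three_cycles_eq_alternating] at hτ
    induction hτ using Subgroup.closure_induction with
    | mem y hy => exact threeCycle_mem_K3 hF hc (by rw [← hy.orderOf]; exact pow_orderOf_eq_one y)
    | one =>
      have : monoSU hF (1 : Equiv.Perm (Fin 6)) (fun _ => (1 : F)) Finset.prod_const_one = 1 :=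
        sv_ext fun x => funext fun i => by simp [sv_monoSU hF]
      rw [this]
      exact one_mem _
    | mul a b _ _ ha hb =>
      have : monoSU hF (a * b) (fun _ => (1 : F)) Finset.prod_const_one =
          monoSU hF b (fun _ => (1 : F)) Finset.prod_const_one *
            monoSU hF a (fun _ => (1 : F)) Finset.prod_const_one :=
        sv_ext fun x => funext fun i => by simp [sv_monoSU hF, sv_mul]
      rw [this]
      exact mul_mem hb ha
    | inv a _ ha =>
      have : monoSU hF a⁻¹ (fun _ => (1 : F)) Finset.prod_const_one =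
          (monoSU hF a (fun _ => (1 : F)) Finset.prod_const_one)⁻¹ :=
        eq_inv_of_mul_eq_one_left (sv_ext fun x => funext fun i => by simp [sv_monoSU hF, sv_mul])
      rw [this]
      exact inv_mem ha
  have e : monoSU hF σ t ht = monoSU hF 1 t ht * monoSU hF σ (fun _ => (1 : F)) Finset.prod_const_one :=
    sv_ext fun x => funext fun i => by simp [sv_monoSU hF, sv_mul]
  rw [e]
  exact mul_mem (diag_mem_K3 hF hc ht) (hperm σ (Equiv.Perm.mem_alternatingGroup.2 hσ))

theorem swap_not_mem_K3 {c : ℕ} (hc : c ∈ [1, 2, 3]) {g : ↥(SU 6 F 2)}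
    (hg : IsMono g (Equiv.swap 0 1)) : g ∉ K3 hF hc := by
  intro hmem
  obtain ⟨t, ht, rfl⟩ := hg.exists_eq hF
  obtain ⟨i, a, ha, hv⟩ := exists_pt hF hc (v := Pi.single (0 : Fin 6) (1 : F) + (1 : F) • Pi.single 1 1)
    (Or.inl (by rw [supp_ei_add (show (0 : Fin 6) ≠ 1 by decide) one_ne_zero]; rfl))
  have hiso := pt_isotropic hF hc i
  have htv : tv hF (pt hF c i) = monoSU hF (Equiv.swap 0 1) (fun _ => (1 : F)) Finset.prod_const_one := by
    rw [← tv_smul hF hiso ha, ← hv]
    refine sv_ext fun x => funext fun k => ?_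
    rw [sv_tv hF (by rw [hv, hm_smulL, hm_smulR, hiso, mul_zero, mul_zero]), sv_monoSU hF, one_mul]
    have hx : hm x (Pi.single (0 : Fin 6) (1 : F) + (1 : F) • Pi.single 1 1) = x 0 + x 1 := by
      simp [hm, hermForm, Fin.sum_univ_six, Pi.single_apply]
    rw [hx]
    have h2 := two_zero hF
    fin_cases k <;> simp [Equiv.swap_apply_def, Pi.single_apply] <;>
      first | linear_combination (x 0) * h2 | linear_combination (x 1) * h2
  refine tv_not_mem_K3 hF hc i ?_
  have e : monoSU hF (Equiv.swap 0 1) t ht =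
      monoSU hF 1 t ht * monoSU hF (Equiv.swap 0 1) (fun _ => (1 : F)) Finset.prod_const_one :=
    sv_ext fun x => funext fun i => by simp [sv_monoSU hF, sv_mul]
  rw [e] at hmem
  rw [htv]
  exact (Subgroup.mul_mem_cancel_left _ (diag_mem_K3 hF hc ht)).1 hmem

end CfsgLib.U43
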