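import Cfsg.Agent.ThreeTransp.U43.Diag
import Cfsg.Agent.ThreeTransp.Three81.Unitary

/-!
A commutative subgroup of exponent three and order `3⁵` of `SU(6, 2)` is conjugate to the diagonal one.
-/

set_option autoImplicit false
set_option linter.unusedSectionVars false

namespace CfsgLib.U43

open Cfsg CfsgLib.Unitary CfsgLib.ThreeTransp CfsgLib.ThreeTransp.PSU62
open scoped Classical Matrix

variable {F : Type*} [Field F] [Fintype F] (hF : Fintype.card F = 4)
include hF

/-- commuting maps of cube one have a common eigenbasis -/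
theorem span_eigen (L : List ↥(SU 6 F 2)) (hc : ∀ a ∈ L, ∀ b ∈ L, Commute a b)
    (h3 : ∀ a ∈ L, a ^ 3 = 1) :
    Submodule.span F {v : Fin 6 → F | ∀ a ∈ L, ∃ c : F, sv a v = c • v} = ⊤ := by
  induction L with
  | nil => exact eq_top_iff.2 fun v _ => Submodule.subset_span fun a ha => absurd ha List.not_mem_nil
  | cons y L ih =>
    rw [eq_top_iff, ← ih (fun a ha b hb => hc a (List.mem_cons_of_mem _ ha) b (List.mem_cons_of_mem _ hb))
      (fun a ha => h3 a (List.mem_cons_of_mem _ ha)), Submodule.span_le]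
    intro u hu
    obtain ⟨h0, hw1, hw3, hs⟩ := om_spec hF
    obtain ⟨w, hw⟩ : ∃ w, (om hF : F) = w := ⟨_, rfl⟩
    rw [hw] at h0 hw1 hw3 hs
    obtain ⟨P, hP⟩ : ∃ P : F → Fin 6 → F, ∀ c, P c = u + c ^ 2 • sv y u + c • sv y (sv y u) :=
      ⟨_, fun _ => rfl⟩
    have hmem : ∀ c : F, c ^ 3 = 1 → P c ∈ Submodule.span F {v : Fin 6 → F | ∀ a ∈ y :: L, ∃ d : F, sv a v = d • v} := by
      intro c hc3
      refine Submodule.subset_span fun a ha => ?_
      rcases List.mem_cons.1 ha with rfl | ha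
      · refine ⟨c, ?_⟩
        have hy : sv a (sv a (sv a u)) = u := by
          rw [← sv_mul, ← sv_mul, ← pow_two, ← pow_succ, h3 a List.mem_cons_self, sv_one]
        simp only [hP, sv_add, sv_smul, hy, smul_add, smul_smul]
        rw [show c * c ^ 2 = 1 by rw [← pow_succ', hc3], one_smul, ← pow_two]
        abel
      · obtain ⟨d, hd⟩ := hu a ha
        have hay : ∀ v, sv a (sv y v) = sv y (sv a v) := fun v => by
          rw [← sv_mul, ← sv_mul, (hc a (List.mem_cons_of_mem _ ha) y List.mem_cons_self).eq]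
        refine ⟨d, ?_⟩
        simp only [hP, sv_add, sv_smul, hay, hd, smul_add, smul_smul, mul_comm d]
    have hsum : P 1 + P w + P (w ^ 2) = u := by
      have two : (2 : F) = 0 := two_zero hF
      simp only [hP]
      match_scalars <;> grind
    show u ∈ (Submodule.span F _ : Submodule F (Fin 6 → F))
    rw [← hsum]
    exact add_mem (add_mem (hmem 1 (one_pow 3)) (hmem w hw3))
      (hmem (w ^ 2) (by rw [← pow_mul, pow_mul' w 2 3, hw3, one_pow]))

theorem exists_frame {A : Subgroup ↥(SU 6 F 2)} (hA : Nat.card ↥A = 243)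
    (hcomm : ∀ a ∈ A, ∀ b ∈ A, Commute a b) (h3 : ∀ a ∈ A, a ^ 3 = 1) :
    ∃ h : ↥(SU 6 F 2), A.map (MulAut.conj h).toMonoidHom = (dl hF).range := by
  haveI : Fintype ↥A := Fintype.ofFinite _
  obtain ⟨L, hL⟩ : ∃ L : List ↥(SU 6 F 2), ∀ a, a ∈ L ↔ a ∈ A :=
    ⟨((Finset.univ : Finset ↥A).toList).map Subtype.val, fun a => by simp⟩
  have hsp := span_eigen hF L (fun a ha b hb => hcomm a ((hL a).1 ha) b ((hL b).1 hb))
    (fun a ha => h3 a ((hL a).1 ha))
  obtain ⟨S, hS⟩ : ∃ S, {v : Fin 6 → F | ∀ a ∈ L, ∃ c : F, sv a v = c • v} = S := ⟨_, rfl⟩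
  rw [hS] at hsp
  obtain ⟨b, hbS, hbsp, hbli⟩ := exists_linearIndependent F S
  rw [hsp] at hbsp
  obtain ⟨bb, hbb⟩ : ∃ bb : Module.Basis ↥b F (Fin 6 → F), ∀ i, bb i = (i : Fin 6 → F) :=
    ⟨Module.Basis.mk hbli (by rw [Subtype.range_coe_subtype, Set.setOf_mem_eq, hbsp]),
      fun i => Module.Basis.mk_apply _ _ i⟩
  haveI : Fintype ↥b := Fintype.ofFinite _
  have hb6 : Fintype.card ↥b = 6 := by
    rw [← Module.finrank_eq_card_basis bb, Module.finrank_fintype_fun_eq_card, Fintype.card_fin]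
  obtain ⟨e⟩ : Nonempty (↥b ≃ Fin 6) := ⟨Fintype.equivFinOfCardEq hb6⟩
  obtain ⟨B, hB⟩ : ∃ B : Module.Basis (Fin 6) F (Fin 6 → F), B = bb.reindex e := ⟨_, rfl⟩
  have heig : ∀ a : ↥A, ∀ i, ∃ c : F, sv (a : ↥(SU 6 F 2)) (B i) = c • B i := fun a i => by
    have : B i ∈ S := by
      rw [hB, Module.Basis.reindex_apply, hbb]
      exact hbS (e.symm i).2
    rw [← hS] at this
    exact this a ((hL a).2 a.2)
  choose χ hχ using heig
  have hχ3 : ∀ a i, χ a i ^ 3 = 1 := fun a i => by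
    have h := hχ a i
    refine F4.cube_eq_one hF fun h0 => ?_
    rw [h0, zero_smul] at h
    have := congrArg (sv (a : ↥(SU 6 F 2))⁻¹) h
    rw [sv_inv_sv, show sv (a : ↥(SU 6 F 2))⁻¹ (0 : Fin 6 → F) = 0 from Matrix.mulVec_zero _] at this
    exact B.ne_zero i this
  have hdet : ∀ a, ∏ i, χ a i = 1 := fun a => by
    have hM : LinearMap.toMatrix B B (Matrix.toLin' (mat (a : ↥(SU 6 F 2)))) = Matrix.diagonal (χ a) := by
      ext i j
      rw [LinearMap.toMatrix_apply, Matrix.toLin'_apply, show mat (a : ↥(SU 6 F 2)) *ᵥ B j = _ from hχ a j,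
        map_smul, Finsupp.smul_apply, Module.Basis.repr_self, Finsupp.single_apply, Matrix.diagonal_apply,
        smul_eq_mul]
      split <;> rename_i h <;> first | (subst h; simp) | simp [Ne.symm h]
    have h := congrArg Matrix.det hM
    rw [LinearMap.det_toMatrix, LinearMap.det_toLin', Matrix.det_diagonal] at h
    rw [← h]
    exact (a : ↥(SU 6 F 2)).1.2
  have hinj : Function.Injective χ := by
    intro a a' h
    refine Subtype.ext (sv_ext fun x => ?_)
    have : Matrix.toLin' (mat (a : ↥(SU 6 F 2))) = Matrix.toLin' (mat (a' : ↥(SU 6 F 2))) :=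
      B.ext fun i => by
        rw [Matrix.toLin'_apply, Matrix.toLin'_apply]
        exact (hχ a i).trans ((congrFun h i ▸ rfl : χ a i • B i = χ a' i • B i).trans (hχ a' i).symm)
    exact LinearMap.congr_fun this x
  have hne : ∀ a i, χ a i ≠ 0 := fun a i h => by simpa [h] using hχ3 a i
  obtain ⟨f, hf⟩ : ∃ f : ↥A → (Fin 5 → Fˣ), ∀ a j, ((f a j : Fˣ) : F) = χ a (Fin.castSucc j) :=
    ⟨fun a j => Units.mk0 _ (hne a _), fun a j => rfl⟩
  have htup : ∀ a i, ((tup (f a) i : Fˣ) : F) = χ a i := by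
    intro a i
    refine Fin.lastCases ?_ (fun j => by simp only [tup, Fin.snoc_castSucc, hf]) i
    have h1 := tup_prod (f a)
    have h2 := hdet a
    rw [Fin.prod_univ_castSucc] at h1 h2
    simp only [show ∀ j : Fin 5, ((tup (f a) j.castSucc : Fˣ) : F) = χ a j.castSucc from fun j => by
      simp only [tup, Fin.snoc_castSucc, hf]] at h1
    exact mul_left_cancel₀ (Finset.prod_ne_zero_iff.2 fun j _ => hne a _) (h1.trans h2.symm)
  have hfinj : Function.Injective f := fun a a' h => hinj (funext fun i => by rw [← htup, ← htup, h])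
  have hfsurj : Function.Surjective f := by
    refine (Nat.bijective_iff_injective_and_card f).2 ⟨hfinj, ?_⟩ |>.2
    rw [hA, Nat.card_fun, Nat.card_units, Nat.card_eq_fintype_card, Nat.card_eq_fintype_card, hF,
      Fintype.card_fin]
    rfl
  have horth : ∀ i j, i ≠ j → hm (B i) (B j) = 0 := by
    intro i j hij
    by_contra hne'
    obtain ⟨w, hw0, hw1, hw3, -⟩ := F4.exists_omega hF
    have key : ∀ t, ((tup t i : Fˣ) : F) * ((tup t j : Fˣ) : F) ^ 2 = 1 := by
      intro t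
      obtain ⟨a, rfl⟩ := hfsurj t
      have h := sv_herm (a : ↥(SU 6 F 2)) (B i) (B j)
      change hm (sv _ _) (sv _ _) = hm _ _ at h
      rw [hχ, hχ, hm_smulL, hm_smulR, ← mul_assoc] at h
      rw [htup, htup]
      exact mul_right_cancel₀ hne' (h.trans (one_mul _).symm)
    obtain ⟨k, hki, hkj⟩ : ∃ k : Fin 6, k ≠ i ∧ k ≠ j := by clear hne' key hij; revert i j; decide
    obtain ⟨t, ht⟩ : ∃ t : Fin 5 → Fˣ, ∀ l, ((tup t l : Fˣ) : F) = pairVec w i k l := by
      obtain ⟨t, ht⟩ := monoSU_one_mem_dl hF (pairVec_prod hw3 (Ne.symm hki))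
      refine ⟨t, fun l => ?_⟩
      have := congrFun (congrArg (fun g => sv g (fun _ => (1 : F))) ht) l
      simpa [sv_dl, sv_monoSU hF] using this
    have := key t
    rw [ht, ht] at this
    simp [pairVec, Ne.symm hij, Ne.symm hkj] at this
    exact hw1 this
  have hnorm : ∀ i, hm (B i) (B i) = 1 := by
    intro i
    refine (hm_self hF (B i)).resolve_left fun h0 => B.ne_zero i (hm_nondeg' hF fun x => ?_)
    have hx : x ∈ Submodule.span F (Set.range B) := B.span_eq ▸ Submodule.mem_top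
    refine Submodule.span_induction (fun y hy => ?_) (hm_zeroR hF _) (fun y y' _ _ h h' => ?_)
      (fun r y _ h => ?_) hx
    · obtain ⟨j, rfl⟩ := hy
      by_cases h : i = j
      · subst h; exact h0
      · exact horth i j h
    · rw [hm_addR hF, h, h', add_zero]
    · rw [hm_smulR, h, mul_zero]
  obtain ⟨U, hU⟩ := CfsgLib.Three81.exists_frameGU hF B fun i j => by
    by_cases h : i = j
    · subst h; rw [if_pos rfl, hnorm]
    · rw [if_neg h, horth i j h]
  obtain ⟨M, hM⟩ : ∃ M, ((U : GL (Fin 6) F) : Matrix (Fin 6) (Fin 6) F) = M := ⟨_, rfl⟩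
  have hpres : ∀ u v, hm (M *ᵥ u) (M *ᵥ v) = hm u v := fun u v => hM ▸ U.2 u v
  have hd0 : M.det ≠ 0 := by
    rw [← hM]
    exact ((Matrix.isUnit_iff_isUnit_det _).1 (U : GL (Fin 6) F).isUnit).ne_zero
  obtain ⟨d, hd⟩ : ∃ d : Fin 6 → F, d = Function.update (fun _ => (1 : F)) 0 M.det⁻¹ := ⟨_, rfl⟩
  have hdiagne : ∀ i, d i ≠ 0 := fun i => by
    rw [hd, Function.update_apply]; split
    · exact inv_ne_zero hd0
    · exact one_ne_zero
  obtain ⟨k, hk⟩ : ∃ k : ↥(SU 6 F 2), mat k = M * Matrix.diagonal d := by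
    refine ⟨⟨⟨M * Matrix.diagonal d, ?_⟩, (mem_SU_iff _).2 fun u v => ?_⟩, rfl⟩
    · rw [Matrix.det_mul, Matrix.det_diagonal, hd, Finset.prod_update_of_mem (Finset.mem_univ _)]
      simp [hd0]
    · show hm ((M * Matrix.diagonal d) *ᵥ u) ((M * Matrix.diagonal d) *ᵥ v) = hm u v
      rw [← Matrix.mulVec_mulVec, ← Matrix.mulVec_mulVec, hpres, hm, hermForm]
      refine Finset.sum_congr rfl fun i _ => ?_
      rw [Matrix.mulVec_diagonal, Matrix.mulVec_diagonal, show d i * u i * (d i * v i) ^ 2 =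
        d i ^ 3 * (u i * v i ^ 2) by ring, F4.cube_eq_one hF (hdiagne i), one_mul]
  have hkB : ∀ i, sv k (Pi.single i 1) = d i • B i := by
    intro i
    show mat k *ᵥ _ = _
    rw [hk, ← Matrix.mulVec_mulVec, ← hM, ← hU i]
    rw [show Matrix.diagonal d *ᵥ Pi.single i (1 : F) = d i • Pi.single i (1 : F) from funext fun l => by
      rw [Matrix.mulVec_diagonal, Pi.smul_apply, smul_eq_mul, Pi.single_apply]
      split
      · rename_i h; subst h; rfl
      · rw [mul_zero, mul_zero], Matrix.mulVec_smul]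
  refine ⟨k⁻¹, Subgroup.eq_of_le_of_card_ge ?_ (le_of_eq ?_)⟩
  · rintro _ ⟨a, ha, rfl⟩
    refine (dl_range_iff hF).2 ⟨χ ⟨a, ha⟩, fun x i => ?_⟩
    show sv (k⁻¹ * a * k⁻¹⁻¹) x i = _
    have hlin : ∀ l, sv (k⁻¹ * a * k⁻¹⁻¹) (Pi.single l 1) = χ ⟨a, ha⟩ l • Pi.single l 1 := fun l => by
      rw [inv_inv, sv_mul, sv_mul, hkB, sv_smul, show sv a (B l) = _ from hχ ⟨a, ha⟩ l, smul_comm,
        sv_smul, ← hkB, sv_inv_sv]
    have : Matrix.toLin' (mat (k⁻¹ * a * k⁻¹⁻¹)) = Matrix.toLin' (Matrix.diagonal (χ ⟨a, ha⟩)) :=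
      LinearMap.pi_ext' fun l => LinearMap.ext_ring (by
        simp only [LinearMap.coe_comp, Function.comp_apply, LinearMap.coe_single, Matrix.toLin'_apply]
        refine (hlin l).trans (funext fun m => ?_)
        rw [Matrix.mulVec_diagonal, Pi.smul_apply, smul_eq_mul, Pi.single_apply]
        split
        · rename_i h; subst h; rfl
        · rw [mul_zero, mul_zero])
    have h2 := congrFun (LinearMap.congr_fun this x) i
    rw [Matrix.toLin'_apply, Matrix.toLin'_apply, Matrix.mulVec_diagonal] at h2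
    exact h2
  · rw [card_dl hF, Nat.card_congr (Subgroup.equivMapOfInjective _ _ (MulAut.conj k⁻¹).injective).symm.toEquiv, hA]

end CfsgLib.U43
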