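import Mathlib
import Cfsg.Agent.OrthSmall.SixMinus
import Cfsg.Agent.OrthGeo.Simple
import Cfsg.Agent.Classical.Orth.Omega
import Cfsg.Agent.ThreeTransp.U43.Code

/-!
The isometries of the six-dimensional minus type space over three elements acting on the coded
vectors of norm one up to sign.
-/

set_option autoImplicit false
set_option linter.unusedSectionVars false

namespace CfsgLib.U43

open Cfsg Cfsg.Geo CfsgLib.OrthGeo CfsgLib.Classical.Orth
open scoped Matrix MatrixGroups commutatorElement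

local notation "F3" => ZMod 3
local notation "I6" => ((Fin 2 ⊕ Fin 2) ⊕ Fin 2)
local notation "V6" => ((Fin 2 ⊕ Fin 2) ⊕ Fin 2 → ZMod 3)

/-- the form -/
abbrev Q6 : V6 → F3 := Cfsg.quadFormMinus 2 (ZMod 3) 0 1

/-- the isometries -/
abbrev O6 : Subgroup (GL I6 F3) := Cfsg.isometryGroup (ZMod 3) Q6

theorem aniso6 : ∀ z₁ z₂ : F3, z₁ ^ 2 + 0 * z₁ * z₂ + 1 * z₂ ^ 2 = 0 → z₁ = 0 ∧ z₂ = 0 := by decide

theorem hQ6 : IsNondegenerateQuadraticForm Q6 := isNondegQF_quadFormMinus 2 0 1 aniso6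

theorem hn6 : 5 ≤ Fintype.card I6 := by simp

/-- the action -/
abbrev act6 (g : ↥O6) (v : V6) : V6 := ((g : GL I6 F3) : Matrix I6 I6 F3) *ᵥ v

theorem act6_mul (g h : ↥O6) (v : V6) : act6 (g * h) v = act6 g (act6 h v) := by
  simp [act6, Matrix.mulVec_mulVec]

theorem act6_one (v : V6) : act6 1 v = v := by simp [act6]

theorem act6_inv (g : ↥O6) (v : V6) : act6 g⁻¹ (act6 g v) = v := by
  rw [← act6_mul, inv_mul_cancel, act6_one]

theorem act6_neg (g : ↥O6) (v : V6) : act6 g (-v) = -act6 g v := Matrix.mulVec_neg _ _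

theorem act6_q (g : ↥O6) (v : V6) : Q6 (act6 g v) = Q6 v := mem_isometryGroup.1 g.2 v

/-- the vector with a given code -/
def dec6 (n : ℕ) : V6 := fun i => match i with
  | Sum.inl (Sum.inl j) => (d3 n j : F3)
  | Sum.inl (Sum.inr j) => (d3 n (2 + j) : F3)
  | Sum.inr j => (d3 n (4 + j) : F3)

theorem d3_sum {x : ℕ → ℕ} (hx : ∀ i, x i < 3) {j : ℕ} (hj : j < 6) :
    d3 (x 0 + 3 * x 1 + 9 * x 2 + 27 * x 3 + 81 * x 4 + 243 * x 5) j = x j := by
  have := hx 0
  have := hx 1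
  have := hx 2
  have := hx 3
  have := hx 4
  have := hx 5
  unfold d3
  interval_cases j <;> norm_num <;> omega

/-- the code of a vector -/
def enc6 (v : V6) : ℕ :=
  (v (.inl (.inl 0))).val + 3 * (v (.inl (.inl 1))).val + 9 * (v (.inl (.inr 0))).val
    + 27 * (v (.inl (.inr 1))).val + 81 * (v (.inr 0)).val + 243 * (v (.inr 1)).val

theorem enc6_lt (v : V6) : enc6 v < 729 := by
  have h : ∀ x : F3, x.val < 3 := fun x => ZMod.val_lt x
  have := h (v (.inl (.inl 0)))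
  have := h (v (.inl (.inl 1)))
  have := h (v (.inl (.inr 0)))
  have := h (v (.inl (.inr 1)))
  have := h (v (.inr 0))
  have := h (v (.inr 1))
  unfold enc6
  omega

theorem dec6_enc6 (v : V6) : dec6 (enc6 v) = v := by
  obtain ⟨x, hx⟩ : ∃ x : ℕ → ℕ, x = fun i => match i with
      | 0 => (v (.inl (.inl 0))).val
      | 1 => (v (.inl (.inl 1))).val
      | 2 => (v (.inl (.inr 0))).val
      | 3 => (v (.inl (.inr 1))).val
      | 4 => (v (.inr 0)).val
      | _ => (v (.inr 1)).val := ⟨_, rfl⟩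
  have h3 : ∀ i, x i < 3 := fun i => by subst hx; dsimp only; split <;> exact ZMod.val_lt _
  have he : enc6 v = x 0 + 3 * x 1 + 9 * x 2 + 27 * x 3 + 81 * x 4 + 243 * x 5 := by subst hx; rfl
  funext i
  rcases i with (j | j) | j <;> fin_cases j <;>
    simp only [dec6, he] <;> rw [d3_sum h3 (by norm_num)] <;> subst hx <;>
    simp [ZMod.natCast_val]

theorem q6_dec (n : ℕ) : Q6 (dec6 n) = (qN n : F3) := by
  simp [Q6, Cfsg.quadFormMinus, dec6, qN, Fin.sum_univ_two, ZMod.natCast_mod, Nat.cast_add,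
    Nat.cast_mul, Nat.cast_pow]
  ring

theorem q6_dec_eq_one {n : ℕ} : Q6 (dec6 n) = 1 ↔ qN n = 1 := by
  rw [q6_dec, ← Nat.cast_one, ZMod.natCast_eq_natCast_iff', Nat.mod_eq_of_lt (a := qN n)
    (Nat.mod_lt _ (by norm_num))]

theorem b6_dec (m n : ℕ) : bform hQ6 (dec6 m) (dec6 n) = (bN m n : F3) := by
  rw [bform_apply]
  simp [QuadraticMap.polar, Q6, Cfsg.quadFormMinus, dec6, bN, Fin.sum_univ_two, ZMod.natCast_mod,
    Nat.cast_add, Nat.cast_mul]
  ring

theorem dec6_addMul (x t a : ℕ) : dec6 (addMul3 x t a) = dec6 x + (t : F3) • dec6 a := by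
  obtain ⟨z, hz⟩ : ∃ z : ℕ → ℕ, z = fun i => (d3 x i + t * d3 a i) % 3 := ⟨_, rfl⟩
  have hlt : ∀ i, z i < 3 := fun i => by subst hz; exact Nat.mod_lt _ (by norm_num)
  have he : addMul3 x t a = z 0 + 3 * z 1 + 9 * z 2 + 27 * z 3 + 81 * z 4 + 243 * z 5 := by
    subst hz; rfl
  funext i
  rcases i with (j | j) | j <;> fin_cases j <;>
    simp only [dec6, he, Pi.add_apply, Pi.smul_apply, smul_eq_mul] <;>
    rw [d3_sum hlt (by norm_num)] <;> subst hz <;>
    simp [ZMod.natCast_mod]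

theorem dec6_neg (x : ℕ) : dec6 (negN x) = -dec6 x := by
  rw [negN, dec6_addMul]
  funext i
  rcases i with (j | j) | j <;> fin_cases j <;>
    simp [dec6, d3, show (2 : F3) = -1 from rfl]

/-- reflection at a norm one vector -/
noncomputable def rf {a : V6} (ha : Q6 a = 1) : ↥O6 :=
  refl hQ6 (v := a) (by rw [ha]; exact one_ne_zero)

theorem rf_apply {a : V6} (ha : Q6 a = 1) (x : V6) : act6 (rf ha) x = x - bform hQ6 a x • a := by
  show ((refl hQ6 _ : ↥O6).1 : Matrix I6 I6 F3) *ᵥ x = _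
  rw [coe_refl hQ6, reflection_mulVec hQ6, ha, inv_one, one_mul]

theorem rf_dec {a : ℕ} (ha : Q6 (dec6 a) = 1) (x : ℕ) :
    act6 (rf ha) (dec6 x) = dec6 (reflN a x) := by
  rw [rf_apply, reflN, dec6_addMul, b6_dec, Nat.cast_mul, sub_eq_add_neg, ← neg_smul]
  congr 2
  generalize (bN a x : F3) = t
  revert t
  decide

theorem rf_conj (g : ↥O6) {a : V6} (ha : Q6 a = 1) :
    g * rf ha * g⁻¹ = rf ((act6_q g a).trans ha) :=
  Subtype.ext (conj_reflection hQ6 g.2 (by rw [ha]; exact one_ne_zero)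
    (by rw [act6_q, ha]; exact one_ne_zero) rfl)

section cls

variable {c : ℕ} (hc : c ∈ [1, 2, 3])
include hc

theorem phi_norm (i : Fin 126) : Q6 (dec6 (phiN c i)) = 1 := by
  have h := List.all_eq_true.1 (List.all_eq_true.1 pt_check c hc) i (List.mem_range.2 i.2)
  simp only [Bool.and_eq_true, Nat.beq_eq] at h
  exact q6_dec_eq_one.2 h.1.2

theorem phi_cover {v : V6} (hv : Q6 v = 1) :
    ∃ i : Fin 126, (i : ℕ) = phiPosN c (enc6 v) ∧ (v = dec6 (phiN c i) ∨ v = -dec6 (phiN c i)) := by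
  have h := List.all_eq_true.1 (List.all_eq_true.1 phi_check c hc) (enc6 v)
    (List.mem_range.2 (enc6_lt v))
  have hq : qN (enc6 v) = 1 := q6_dec_eq_one.1 (by rw [dec6_enc6]; exact hv)
  simp only [Bool.or_eq_true, Bool.and_eq_true, Bool.not_eq_true', Nat.beq_eq, Nat.blt_eq, hq,
    Nat.beq_refl, Bool.true_eq_false, false_or] at h
  refine ⟨⟨_, h.1⟩, rfl, ?_⟩
  rcases h.2 with e | e
  · left; rw [e, dec6_enc6]
  · right
    rw [← dec6_neg, e, dec6_enc6]

end cls

/-- the index of a vector of norm one -/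
noncomputable def lineIx6 (c : ℕ) (v : V6) : Fin 126 :=
  if h : phiPosN c (enc6 v) < 126 then ⟨_, h⟩ else 0

theorem lineIx6_spec {c : ℕ} (hc : c ∈ [1, 2, 3]) {v : V6} (hv : Q6 v = 1) :
    v = dec6 (phiN c (lineIx6 c v)) ∨ v = -dec6 (phiN c (lineIx6 c v)) := by
  obtain ⟨i, hi, h⟩ := phi_cover hc hv
  have e : lineIx6 c v = i := by
    unfold lineIx6
    rw [dif_pos (show phiPosN c (enc6 v) < 126 by rw [← hi]; exact i.2)]
    exact Fin.ext hi.symm
  rwa [e]

theorem enc6_dec {n : ℕ} (hn : n < 729) : enc6 (dec6 n) = n := by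
  have h : ∀ j, d3 n j < 3 := fun j => Nat.mod_lt _ (by norm_num)
  simp only [enc6, dec6, ZMod.val_natCast_of_lt (h _), Fin.val_zero, Fin.val_one, Nat.add_zero]
  simp only [d3]
  omega

theorem negN_lt (x : ℕ) : negN x < 729 := by
  unfold negN addMul3
  omega

theorem lineIx6_pt {c : ℕ} (hc : c ∈ [1, 2, 3]) (i : Fin 126) :
    lineIx6 c (dec6 (phiN c i)) = i ∧ lineIx6 c (-dec6 (phiN c i)) = i := by
  have h1 := List.all_eq_true.1 (List.all_eq_true.1 pt_check c hc) i (List.mem_range.2 i.2)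
  have h2 := List.all_eq_true.1 (List.all_eq_true.1 line_check c hc) i (List.mem_range.2 i.2)
  simp only [Bool.and_eq_true, Nat.beq_eq, Nat.blt_eq] at h1 h2
  constructor
  · unfold lineIx6
    rw [dif_pos (by rw [enc6_dec h1.1.1.2, h1.2]; exact i.2)]
    exact Fin.ext (by show phiPosN c _ = _; rw [enc6_dec h1.1.1.2, h1.2])
  · unfold lineIx6
    rw [← dec6_neg, dif_pos (by rw [enc6_dec (negN_lt _), h2.2]; exact i.2)]
    exact Fin.ext (by show phiPosN c _ = _; rw [enc6_dec (negN_lt _), h2.2])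

theorem lineIx6_neg {c : ℕ} (hc : c ∈ [1, 2, 3]) {v : V6} (hv : Q6 v = 1) :
    lineIx6 c (-v) = lineIx6 c v := by
  rcases lineIx6_spec hc hv with h | h
  · conv_lhs => rw [h]
    rw [(lineIx6_pt hc _).2]
  · conv_lhs => rw [h]
    rw [neg_neg, (lineIx6_pt hc _).1]

/-- the image of a point -/
noncomputable def moveFun (c : ℕ) (g : ↥O6) (i : Fin 126) : Fin 126 :=
  lineIx6 c (act6 g (dec6 (phiN c i)))

theorem moveFun_mul {c : ℕ} (hc : c ∈ [1, 2, 3]) (g h : ↥O6) (i : Fin 126) :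
    moveFun c (g * h) i = moveFun c g (moveFun c h i) := by
  have hv : Q6 (act6 h (dec6 (phiN c i))) = 1 := by rw [act6_q]; exact phi_norm hc i
  unfold moveFun
  rw [act6_mul]
  rcases lineIx6_spec hc hv with e | e
  · rw [← e]
  · conv_lhs => rw [e, act6_neg]
    rw [lineIx6_neg hc (by rw [act6_q]; exact phi_norm hc _)]

theorem moveFun_one {c : ℕ} (hc : c ∈ [1, 2, 3]) (i : Fin 126) : moveFun c 1 i = i := by
  rw [moveFun, act6_one, (lineIx6_pt hc i).1]

/-- the action on the norm one points -/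
noncomputable def sig {c : ℕ} (hc : c ∈ [1, 2, 3]) : ↥O6 →* Equiv.Perm (Fin 126) where
  toFun g := ⟨moveFun c g, moveFun c g⁻¹,
    fun i => by rw [← moveFun_mul hc, inv_mul_cancel, moveFun_one hc],
    fun i => by rw [← moveFun_mul hc, mul_inv_cancel, moveFun_one hc]⟩
  map_one' := Equiv.ext fun i => moveFun_one hc i
  map_mul' g h := Equiv.ext fun i => moveFun_mul hc g h i

theorem sig_eq_one {c : ℕ} (hc : c ∈ [1, 2, 3]) {g : ↥O6} (hg : sig hc g = 1) {v : V6}
    (hv : Q6 v = 1) : act6 g v = v ∨ act6 g v = -v := by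
  obtain ⟨i, -, hi⟩ := phi_cover hc hv
  have h1 : moveFun c g i = i := Equiv.ext_iff.1 hg i
  have h2 := lineIx6_spec hc (v := act6 g (dec6 (phiN c i))) (by rw [act6_q]; exact phi_norm hc i)
  rw [show lineIx6 c (act6 g (dec6 (phiN c i))) = i from h1] at h2
  rcases hi with rfl | rfl
  · exact h2
  · rw [act6_neg, neg_neg, neg_inj]
    rcases h2 with h | h
    · exact Or.inl h
    · right; rw [h, neg_neg]

theorem f3_pair : ∀ s t u : F3, t ≠ 0 → u ≠ 0 → s ≠ 0 → t + u = s + s → t = s ∧ u = s := by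
  decide +kernel

theorem q6_four : ∀ k : Fin 2 ⊕ Fin 2,
    Q6 (Pi.single (.inr 0) 1 + Pi.single (.inl k) 1 : V6) = 1 ∧
      Q6 (Pi.single (.inr 0) 1 + -Pi.single (.inl k) 1 : V6) = 1 := by decide

/-- A map fixing every norm one point is a scalar. -/
theorem scalar_of_sig {c : ℕ} (hc : c ∈ [1, 2, 3]) {g : ↥O6} (hg : sig hc g = 1) :
    ∃ s : F3, s ≠ 0 ∧ ∀ v, act6 g v = s • v := by
  have key : ∀ v, Q6 v = 1 → ∃ s : F3, s ≠ 0 ∧ act6 g v = s • v := fun v hv =>
    (sig_eq_one hc hg hv).elim (fun h => ⟨1, one_ne_zero, by rw [h, one_smul]⟩)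
      (fun h => ⟨-1, by decide, by rw [h, neg_one_smul]⟩)
  obtain ⟨s, hs, h4⟩ := key (Pi.single (.inr 0) 1) (by decide)
  refine ⟨s, hs, ?_⟩
  have hsing : ∀ k : Fin 2 ⊕ Fin 2, act6 g (Pi.single (.inl k) 1) = s • Pi.single (.inl k) 1 := by
    intro k
    obtain ⟨t, ht, h1⟩ := key _ (q6_four k).1
    obtain ⟨t', ht', h2⟩ := key _ (q6_four k).2
    simp only [act6, Matrix.mulVec_add, Matrix.mulVec_neg] at h1 h2 h4 ⊢
    rw [h4] at h1 h2
    generalize (((g : GL I6 F3) : Matrix I6 I6 F3) *ᵥ Pi.single (Sum.inl k) 1) = X at h1 h2 ⊢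
    have e1 := congrFun h1 (.inr 0)
    have e2 := congrFun h2 (.inr 0)
    funext i
    have f1 := congrFun h1 i
    have f2 := congrFun h2 i
    simp only [Pi.add_apply, Pi.neg_apply, Pi.smul_apply, smul_eq_mul, Pi.single_eq_same,
      Pi.single_eq_of_ne (show (Sum.inr 0 : I6) ≠ Sum.inl k by simp), mul_one, neg_zero,
      add_zero] at e1 e2 f1 f2 ⊢
    obtain ⟨rfl, rfl⟩ := f3_pair s t t' ht ht' hs (by linear_combination -e1 - e2)
    linear_combination f1
  have h5 : act6 g (Pi.single (.inr 1) 1) = s • Pi.single (.inr 1) 1 := by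
    obtain ⟨t, ht, h1⟩ := key (Pi.single (.inr 1) 1 + Pi.single (.inl (.inl 0)) 1) (by decide)
    obtain ⟨u, hu, h2⟩ := key (Pi.single (.inr 1) 1) (by decide)
    have h0 := hsing (.inl 0)
    simp only [act6, Matrix.mulVec_add] at h1 h0 h2 ⊢
    rw [h2, h0] at h1
    have e1 := congrFun h1 (.inl (.inl 0))
    have e2 := congrFun h1 (.inr 1)
    simp at e1 e2
    rw [h2, e2, e1]
  intro v
  have hlin : Matrix.mulVecLin ((g : GL I6 F3) : Matrix I6 I6 F3) = s • LinearMap.id := by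
    refine LinearMap.pi_ext' fun i => LinearMap.ext_ring ?_
    simp only [LinearMap.coe_comp, Function.comp_apply, LinearMap.coe_single, LinearMap.smul_apply,
      LinearMap.id_coe, id_eq, Matrix.mulVecLin_apply]
    rcases i with k | j
    · exact hsing k
    · fin_cases j
      exacts [h4, h5]
  exact LinearMap.congr_fun hlin v

theorem det_rf {a : V6} (ha : Q6 a = 1) :
    (((rf ha : ↥O6) : GL I6 F3) : Matrix I6 I6 F3).det = -1 := by
  have h0 : Q6 a ≠ 0 := by rw [ha]; exact one_ne_zero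
  exact (congrArg Matrix.det (refl_val hQ6 h0)).trans (det_reflection hQ6 h0)

theorem det_omega {g : ↥O6} (hg : g ∈ Cfsg.Omega F3 Q6) :
    ((g : GL I6 F3) : Matrix I6 I6 F3).det = 1 := by
  have h : Cfsg.Omega F3 Q6 ≤ (Matrix.GeneralLinearGroup.det.comp O6.subtype).ker :=
    Abelianization.commutator_subset_ker _
  have h1 := MonoidHom.mem_ker.1 (h hg)
  rw [MonoidHom.comp_apply, Subgroup.coe_subtype, Units.ext_iff] at h1
  rwa [Matrix.GeneralLinearGroup.val_det_apply, Units.val_one] at h1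

/-- A reflection acts on the points differently from all of `Omega`. -/
theorem sig_rf_not_mem {c : ℕ} (hc : c ∈ [1, 2, 3]) {a : V6} (ha : Q6 a = 1) :
    sig hc (rf ha) ∉ (Cfsg.Omega F3 Q6).map (sig hc) := by
  rintro ⟨w, hw, he⟩
  obtain ⟨s, hs, hsv⟩ := scalar_of_sig hc (g := w⁻¹ * rf ha)
    (by rw [map_mul, map_inv, he, inv_mul_cancel])
  have hmat : (((w⁻¹ * rf ha : ↥O6) : GL I6 F3) : Matrix I6 I6 F3) = s • 1 :=
    Matrix.ext_of_mulVec_single fun i => by
      rw [Matrix.smul_mulVec, Matrix.one_mulVec]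
      exact hsv _
  have h := congrArg Matrix.det hmat
  rw [Matrix.det_smul, Matrix.det_one, mul_one, Subgroup.coe_mul, Units.val_mul, Matrix.det_mul,
    det_omega (inv_mem hw), det_rf, one_mul] at h
  simp only [Fintype.card_sum, Fintype.card_fin] at h
  clear hsv hmat
  revert h hs
  revert s
  decide

theorem omega_perfect : ⁅Cfsg.Omega F3 Q6, Cfsg.Omega F3 Q6⁆ = Cfsg.Omega F3 Q6 := by
  apply Subgroup.map_injective (Cfsg.isometryGroup F3 Q6).subtype_injective
  rw [Subgroup.map_commutator]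
  exact omegaGL_perfect hQ6 hn6

theorem rf_congr {a b : V6} (ha : Q6 a = 1) (hb : Q6 b = 1) (h : b = a ∨ b = -a) :
    rf hb = rf ha := by
  refine Subtype.ext (Units.ext (Matrix.ext_of_mulVec_single fun k => ?_))
  show act6 (rf hb) _ = act6 (rf ha) _
  rw [rf_apply, rf_apply]
  rcases h with rfl | rfl
  · rfl
  · rw [map_neg, LinearMap.neg_apply, neg_smul, smul_neg, neg_neg]

theorem line_of_rf_eq {a b : V6} (ha : Q6 a = 1) (hb : Q6 b = 1) (h : rf hb = rf ha) :
    b = a ∨ b = -a := by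
  have h1 := congrArg (fun g => act6 g a) h
  simp only [rf_apply] at h1
  rw [b_self hQ6, ha, mul_one] at h1
  obtain ⟨t, ht⟩ : ∃ t, bform hQ6 b a = t := ⟨_, rfl⟩
  rw [ht] at h1
  have h2 : (2 : F3) • a = t • b := (sub_right_inj.1 h1).symm
  have h3 : a = (2 * t) • b := by
    rw [mul_smul, ← h2, smul_smul, show (2 : F3) * 2 = 1 from rfl, one_smul]
  have h4 := congrArg Q6 h3
  rw [ha, show Q6 ((2 * t) • b) = (2 * t) ^ 2 * Q6 b from q_smul hQ6 _ _, hb, mul_one] at h4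
  rcases (by revert h4; generalize 2 * t = s; revert s; decide : 2 * t = 1 ∨ 2 * t = -1) with e | e
  · left; rw [h3, e, one_smul]
  · right; rw [h3, e, neg_one_smul, neg_neg]

/-- the group generated by the reflections -/
noncomputable def W6 {c : ℕ} (hc : c ∈ [1, 2, 3]) : Subgroup ↥O6 :=
  Subgroup.closure (Set.range fun i : Fin 126 => rf (phi_norm hc i))

theorem perfect_le_or_commute {A : Type*} [Group A] (Ω W : Subgroup A) [hnO : Ω.Normal]
    [hnW : W.Normal] (hperf : commutator ↥Ω = ⊤)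
    [IsSimpleGroup (↥Ω ⧸ Subgroup.center ↥Ω)] :
    Ω ≤ W ∨ ∀ w ∈ W, ∀ o ∈ Ω, Commute w o := by
  obtain ⟨N, hN⟩ : ∃ N, W.subgroupOf Ω = N := ⟨_, rfl⟩
  haveI hNn : N.Normal := hN ▸ inferInstance
  rcases (hNn.map (QuotientGroup.mk' (Subgroup.center ↥Ω))
      (QuotientGroup.mk'_surjective _)).eq_bot_or_eq_top with h | h
  · right
    rw [Subgroup.map_eq_bot_iff, QuotientGroup.ker_mk'] at h
    intro w hw
    have hmem : ∀ o ∈ Ω, ⁅w, o⁆ ∈ Ω ∧ ⁅w, o⁆ ∈ W := fun o ho =>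
      ⟨mul_mem (hnO.conj_mem o ho w) (inv_mem ho), by
        rw [commutatorElement_def, show w * o * w⁻¹ * o⁻¹ = w * (o * w⁻¹ * o⁻¹) by group]
        exact mul_mem hw (hnW.conj_mem _ (inv_mem hw) o)⟩
    have hcen : ∀ o ∈ Ω, ∀ x ∈ Ω, Commute x ⁅w, o⁆ := fun o ho x hx => by
      have := h (x := ⟨_, (hmem o ho).1⟩) (hN ▸ Subgroup.mem_subgroupOf.2 (hmem o ho).2)
      exact congrArg Subtype.val (Subgroup.mem_center_iff.1 this ⟨x, hx⟩)
    obtain ⟨f, hf⟩ : ∃ f : ↥Ω →* ↥(Subgroup.center ↥Ω), ∀ o, ((f o).1 : A) = ⁅w, (o : A)⁆ := by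
      refine ⟨MonoidHom.mk' (fun o => ⟨⟨_, (hmem o o.2).1⟩, Subgroup.mem_center_iff.2 fun x =>
        Subtype.ext (hcen o o.2 x x.2)⟩) fun a b => ?_, fun o => rfl⟩
      refine Subtype.ext (Subtype.ext ?_)
      show ⁅w, (a : A) * b⁆ = ⁅w, (a : A)⁆ * ⁅w, (b : A)⁆
      calc ⁅w, (a : A) * b⁆ = ⁅w, (a : A)⁆ * ((a : A) * ⁅w, (b : A)⁆ * (a : A)⁻¹) := by
            simp only [commutatorElement_def]; group
        _ = _ := by rw [(hcen b b.2 a a.2).eq, mul_inv_cancel_right]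
    intro o ho
    have hk : commutator ↥Ω ≤ f.ker := by
      rw [commutator_def, Subgroup.commutator_le]
      intro a _ b _
      rw [MonoidHom.mem_ker, map_commutatorElement, commutatorElement_eq_one_iff_commute]
      exact Subtype.ext (Subgroup.mem_center_iff.1 (f b).2 (f a).1)
    rw [hperf] at hk
    have h1 : f ⟨o, ho⟩ = 1 := MonoidHom.mem_ker.1 (hk (Subgroup.mem_top _))
    have h2 := hf ⟨o, ho⟩
    rw [h1] at h2
    exact commutatorElement_eq_one_iff_commute.1 h2.symm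
  · left
    have hN1 : N = ⊤ := by
      rw [eq_top_iff, ← hperf, commutator_def, Subgroup.commutator_le]
      intro a _ b _
      have hdec : ∀ x : ↥Ω, ∃ n ∈ N, n⁻¹ * x ∈ Subgroup.center _ := by
        intro x
        obtain ⟨n, hn, hnx⟩ := h.symm ▸ Subgroup.mem_top (QuotientGroup.mk' (Subgroup.center ↥Ω) x)
        exact ⟨n, hn, QuotientGroup.eq.1 hnx⟩
      obtain ⟨n, hn, hz⟩ := hdec a
      obtain ⟨m, hm, hy⟩ := hdec b
      obtain ⟨z, rfl⟩ : ∃ z, a = n * z := ⟨n⁻¹ * a, by group⟩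
      obtain ⟨y, rfl⟩ : ∃ y, b = m * y := ⟨m⁻¹ * b, by group⟩
      rw [inv_mul_cancel_left] at hz hy
      have : ⁅n * z, m * y⁆ = ⁅n, m⁆ := by
        rw [commutatorElement_def, commutatorElement_def, mul_inv_rev, mul_inv_rev]
        calc n * z * (m * y) * (z⁻¹ * n⁻¹) * (y⁻¹ * m⁻¹)
            = n * (z * (m * y)) * z⁻¹ * (n⁻¹ * y⁻¹) * m⁻¹ := by group
          _ = n * ((m * y) * z) * z⁻¹ * (n⁻¹ * y⁻¹) * m⁻¹ := by rw [← Subgroup.mem_center_iff.1 hz (m * y)]
          _ = n * m * (y * n⁻¹) * y⁻¹ * m⁻¹ := by group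
          _ = n * m * (n⁻¹ * y) * y⁻¹ * m⁻¹ := by rw [← Subgroup.mem_center_iff.1 hy n⁻¹]
          _ = n * m * n⁻¹ * m⁻¹ := by group
      rw [this]
      exact mul_mem (mul_mem (mul_mem hn hm) (inv_mem hn)) (inv_mem hm)
    intro x hx
    have := hN1 ▸ Subgroup.mem_top (⟨x, hx⟩ : ↥Ω)
    rw [← hN] at this
    exact Subgroup.mem_subgroupOf.1 this

theorem omega_comm_top : commutator ↥(Cfsg.Omega F3 Q6) = ⊤ := by
  apply Subgroup.map_injective (Cfsg.Omega F3 Q6).subtype_injective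
  rw [commutator_def, Subgroup.map_commutator, ← MonoidHom.range_eq_map, Subgroup.range_subtype,
    omega_perfect]

theorem W6_normal {c : ℕ} (hc : c ∈ [1, 2, 3]) : (W6 hc).Normal := by
  refine ⟨fun x hx g => ?_⟩
  induction hx using Subgroup.closure_induction with
  | mem y hy =>
    obtain ⟨i, rfl⟩ := hy
    rw [rf_conj]
    obtain ⟨j, -, hj⟩ := phi_cover hc ((act6_q g _).trans (phi_norm hc i))
    exact Subgroup.subset_closure ⟨j, (rf_congr (phi_norm hc j) _ hj).symm⟩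
  | one => rw [mul_one, mul_inv_cancel]; exact one_mem _
  | mul a b _ _ ha hb =>
    rw [show g * (a * b) * g⁻¹ = (g * a * g⁻¹) * (g * b * g⁻¹) by group]; exact mul_mem ha hb
  | inv a _ ha => rw [show g * a⁻¹ * g⁻¹ = (g * a * g⁻¹)⁻¹ by group]; exact inv_mem ha

theorem omega_le {c : ℕ} (hc : c ∈ [1, 2, 3]) : Cfsg.Omega F3 Q6 ≤ W6 hc := by
  haveI := W6_normal hc
  haveI := isSimpleGroup_POmega hQ6 hn6
  refine (perfect_le_or_commute (Cfsg.Omega F3 Q6) (W6 hc) omega_comm_top).resolve_right fun hcom => ?_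
  have hsig : ∀ o ∈ Cfsg.Omega F3 Q6, sig hc o = 1 := fun o ho => Equiv.ext fun i => by
    have hr : o * rf (phi_norm hc i) * o⁻¹ = rf (phi_norm hc i) := by
      rw [← (hcom _ (Subgroup.subset_closure ⟨i, rfl⟩) o ho).eq, mul_inv_cancel_right]
    rw [rf_conj] at hr
    show lineIx6 c _ = i
    rcases line_of_rf_eq (phi_norm hc i) _ hr with e | e <;> rw [e]
    exacts [(lineIx6_pt hc i).1, (lineIx6_pt hc i).2]
  have htop : Subgroup.center ↥(Cfsg.Omega F3 Q6) = ⊤ := by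
    refine eq_top_iff.2 fun a _ => Subgroup.mem_center_iff.2 fun b => ?_
    obtain ⟨s, -, hs⟩ := scalar_of_sig hc (hsig a a.2)
    refine Subtype.ext (Subtype.ext (Units.ext (Matrix.ext_of_mulVec_single fun k => ?_)))
    show act6 ((b : ↥O6) * a) _ = act6 ((a : ↥O6) * b) _
    rw [act6_mul, act6_mul, hs, hs]
    exact Matrix.mulVec_smul _ _ _
  haveI : Subsingleton (Cfsg.POmega F3 Q6) := by
    rw [Cfsg.POmega]
    exact QuotientGroup.subsingleton_iff.2 htop
  exact not_subsingleton (Cfsg.POmega F3 Q6) inferInstance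

end CfsgLib.U43
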