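import Cfsg.Agent.ThreeTransp.U43.Stab
import Cfsg.Agent.ThreeTransp.U43.Orth

/-!
The three subgroups `3·U₄(3)` of `SU(6, 2)`.
-/

set_option autoImplicit false
set_option linter.unusedSectionVars false

namespace CfsgLib.U43

open Cfsg CfsgLib.Unitary CfsgLib.ThreeTransp CfsgLib.ThreeTransp.PSU62
open scoped Classical commutatorElement

variable {F : Type*} [Field F] [Fintype F] (hF : Fintype.card F = 4)

omit [Fintype F] in
theorem smul_vec_ne_zero {a : F} (ha : a ≠ 0) {v : Fin 6 → F} (hv : v ≠ 0) : a • v ≠ 0 :=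
  smul_ne_zero ha hv

include hF

theorem smulN_lt (a : ℕ) {n : ℕ} (hn : n < 4096) : smulN a n < 4096 := by
  have ho : ∀ k, omN k < 2 ^ 12 := fun k => Nat.or_lt_two_pow
    (lt_of_le_of_lt Nat.and_le_right (by norm_num))
    (by
      have : lo k ^^^ hi k < 2 ^ 6 := Nat.xor_lt_two_pow
        (lt_of_le_of_lt Nat.and_le_right (by norm_num)) (lt_of_le_of_lt Nat.and_le_right (by norm_num))
      rw [Nat.shiftLeft_eq]; omega)
  match a with
  | 0 => norm_num [smulN]
  | 1 => exact hn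
  | 2 => exact ho _
  | (k + 3) => exact ho _

/-- the code of a vector -/
noncomputable def code (v : Fin 6 → F) : ℕ := (vec_surj hF v).choose

theorem code_spec (v : Fin 6 → F) : code hF v < 4096 ∧ vec hF (code hF v) = v :=
  (vec_surj hF v).choose_spec

theorem code_vec {n : ℕ} (hn : n < 4096) : code hF (vec hF n) = n :=
  vec_inj hF (code_spec hF _).1 hn (code_spec hF _).2

/-- scalar maps -/
noncomputable def scal : Fˣ →* ↥(SU 6 F 2) :=
  MonoidHom.mk' (fun a => monoSU hF 1 (fun _ => (a : F)) (by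
    rw [Finset.prod_const, Finset.card_univ, Fintype.card_fin,
      show (a : F) ^ 6 = ((a : F) ^ 3) ^ 2 by ring, F4.cube_eq_one hF a.ne_zero, one_pow]))
    fun a b => sv_ext fun x => funext fun i => by
      rw [sv_mul, sv_monoSU hF, sv_monoSU hF, sv_monoSU hF, Equiv.Perm.one_apply,
        Equiv.Perm.one_apply, Units.val_mul, mul_assoc]

theorem sv_scal (a : Fˣ) (x : Fin 6 → F) : sv (scal hF a) x = (a : F) • x :=
  funext fun i => by
    simp only [scal, MonoidHom.mk'_apply, sv_monoSU hF, Equiv.Perm.one_apply, Pi.smul_apply,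
      smul_eq_mul]

theorem scal_range : (scal hF).range = Subgroup.center ↥(SU 6 F 2) := by
  refine le_antisymm ?_ fun z hz => ?_
  · rintro _ ⟨a, rfl⟩
    refine Subgroup.mem_center_iff.2 fun g => sv_ext fun x => ?_
    rw [sv_mul, sv_mul, sv_scal, sv_scal, sv_smul]
  · obtain ⟨c, hc, h⟩ := center_sv hF hz
    exact ⟨Units.mk0 c hc, sv_ext fun x => by rw [sv_scal, h]; rfl⟩

theorem card_center : Nat.card ↥(Subgroup.center ↥(SU 6 F 2)) = 3 := by
  rw [← scal_range hF, Nat.card_congr (MonoidHom.ofInjective (f := scal hF) ?_).symm.toEquiv,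
    Nat.card_units, Nat.card_eq_fintype_card, hF]
  intro a b h
  have := congrFun (congrArg (fun g => sv g (fun _ => (1 : F))) h) 0
  simp only [sv_scal, Pi.smul_apply, smul_eq_mul, mul_one] at this
  exact Units.ext this

section cls

variable {c : ℕ} (hc : c ∈ [1, 2, 3])
include hc

omit hF in
theorem c_lt : c < 4 := by
  simp only [List.mem_cons, List.not_mem_nil, or_false] at hc
  omega

omit hF in
theorem c_ne : c ≠ 0 := by
  simp only [List.mem_cons, List.not_mem_nil, or_false] at hc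
  omega

omit hF in
theorem pt_facts (i : Fin 126) :
    ptN c i < 4096 ∧ pB c (ptN c i) = true ∧ posN c (ptN c i) = i := by
  have h := List.all_eq_true.1 (List.all_eq_true.1 pt_check c hc) i (List.mem_range.2 i.2)
  simp only [Bool.and_eq_true, Nat.beq_eq, Nat.blt_eq] at h
  exact ⟨h.1.1.1.1.1, h.1.1.1.1.2, h.1.1.1.2⟩

/-- the points -/
noncomputable def pt (hF : Fintype.card F = 4) (c : ℕ) (i : Fin 126) : Fin 6 → F :=
  vec hF (ptN c i)

theorem P_pt (i : Fin 126) : P hF c (pt hF c i) :=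
  (P_vec hF (c_lt hc) (pt_facts hc i).1).2 (pt_facts hc i).2.1

/-- the index of a point -/
noncomputable def lineIx (hF : Fintype.card F = 4) (c : ℕ) (v : Fin 6 → F) : Fin 126 :=
  if h : posN c (code hF v) < 126 then ⟨_, h⟩ else 0

theorem exists_pt {v : Fin 6 → F} (hv : P hF c v) :
    ∃ (i : Fin 126) (a : F), a ≠ 0 ∧ v = a • pt hF c i := by
  obtain ⟨hn, hvn⟩ := code_spec hF v
  have h := List.all_eq_true.1 (List.all_eq_true.1 pos_check c hc) (code hF v) (List.mem_range.2 hn)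
  have hP : pB c (code hF v) = true := (P_vec hF (c_lt hc) hn).1 (by rw [hvn]; exact hv)
  simp only [Bool.or_eq_true, Bool.and_eq_true, Bool.not_eq_true', Nat.beq_eq, Nat.blt_eq, hP,
    Bool.true_eq_false, false_or, List.any_eq_true] at h
  obtain ⟨⟨hlt, -⟩, a, ha, he⟩ := h
  simp only [List.mem_cons, List.not_mem_nil, or_false] at ha
  refine ⟨⟨_, hlt⟩, el hF a, fun h0 => ?_, ?_⟩
  · have := (el_eq_zero hF (a := a) (by omega)).1 h0
    omega
  · unfold pt
    rw [← vec_smul hF (by omega), he, hvn]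

theorem lineIx_smul {a : F} (ha : a ≠ 0) (i : Fin 126) : lineIx hF c (a • pt hF c i) = i := by
  obtain ⟨b, hb, rfl⟩ := el_surj hF a
  have hb0 : b ≠ 0 := fun h => ha (by subst h; rfl)
  have hlt := smulN_lt hF b (pt_facts hc i).1
  have h := List.all_eq_true.1 (List.all_eq_true.1 line_check c hc) i (List.mem_range.2 i.2)
  simp only [Bool.and_eq_true, Nat.beq_eq, List.all_eq_true] at h
  have hpos := h.1 b (by simp only [List.mem_cons, List.not_mem_nil, or_false]; omega)
  unfold lineIx pt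
  rw [← vec_smul hF hb, dif_pos (by rw [code_vec hF hlt, hpos]; exact i.2)]
  exact Fin.ext (by show posN c _ = _; rw [code_vec hF hlt, hpos])

theorem lineIx_spec {v : Fin 6 → F} (hv : P hF c v) :
    ∃ a : F, a ≠ 0 ∧ v = a • pt hF c (lineIx hF c v) := by
  obtain ⟨i, a, ha, h⟩ := exists_pt hF hc hv
  exact ⟨a, ha, by rw [h, lineIx_smul hF hc ha]⟩

theorem pt_isotropic (i : Fin 126) : hm (pt hF c i) (pt hF c i) = 0 :=
  (P_isotropic hF (c_lt hc) (P_pt hF hc i)).2

theorem tv_pt (i j : Fin 126) :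
    sv (tv hF (pt hF c i)) (pt hF c j) = vec hF (tvN (ptN c i) (ptN c j)) ∧
      tvN (ptN c i) (ptN c j) < 4096 ∧
      lineIx hF c (vec hF (tvN (ptN c i) (ptN c j))) = lineIx6 c (dec6 (reflN (phiN c i) (phiN c j))) ∧
      P hF c (vec hF (tvN (ptN c i) (ptN c j))) := by
  have hlt : tvN (ptN c i) (ptN c j) < 4096 :=
    Nat.xor_lt_two_pow (n := 12) (pt_facts hc j).1 (smulN_lt hF _ (pt_facts hc i).1)
  have h := List.all_eq_true.1 (List.all_eq_true.1 (List.all_eq_true.1 conj_check c hc) i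
    (List.mem_range.2 i.2)) j (List.mem_range.2 j.2)
  simp only [Bool.and_eq_true, Nat.beq_eq] at h
  have hN4 : hN (ptN c j) (ptN c i) < 4 := by
    have h : ∀ z, par z ≤ 1 := fun z => Nat.and_le_right
    have := h ((lo (ptN c j) &&& lo (ptN c i)) ^^^ (lo (ptN c j) &&& hi (ptN c i)) ^^^ (hi (ptN c j) &&& hi (ptN c i)))
    have := h ((lo (ptN c j) &&& hi (ptN c i)) ^^^ (hi (ptN c j) &&& lo (ptN c i)))
    unfold hN
    omega
  refine ⟨?_, hlt, ?_, (P_vec hF (c_lt hc) hlt).2 h.1⟩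
  · rw [sv_tv hF (pt_isotropic hF hc i)]
    unfold pt tvN
    rw [vec_xor, vec_smul hF hN4, hm_vec]
  · have hr : reflN (phiN c i) (phiN c j) < 729 := by unfold reflN addMul3; omega
    refine Fin.ext ?_
    unfold lineIx lineIx6
    rw [code_vec hF hlt, enc6_dec hr]
    simp only [h.2]

theorem tv_mem_stabP (i : Fin 126) : tv hF (pt hF c i) ∈ stabP hF c := by
  have hdir : ∀ v, P hF c v → P hF c (sv (tv hF (pt hF c i)) v) := by
    intro v hv
    obtain ⟨j, a, ha, rfl⟩ := exists_pt hF hc hv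
    rw [sv_smul, P_smul hF ha, (tv_pt hF hc i j).1]
    exact (tv_pt hF hc i j).2.2.2
  refine fun v => ⟨fun h => ?_, hdir v⟩
  have := hdir _ h
  rwa [← sv_mul, tv_mul_self hF (pt_isotropic hF hc i), sv_one] at this

/-- the image of a point -/
noncomputable def mvP (hF : Fintype.card F = 4) (c : ℕ) (g : ↥(SU 6 F 2)) (i : Fin 126) : Fin 126 :=
  lineIx hF c (sv g (pt hF c i))

theorem mvP_mul {g h : ↥(SU 6 F 2)} (hh : h ∈ stabP hF c) (i : Fin 126) :
    mvP hF c (g * h) i = mvP hF c g (mvP hF c h i) ∨ ¬ g ∈ stabP hF c := by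
  by_cases hg : g ∈ stabP hF c
  · left
    obtain ⟨a, ha, e⟩ := lineIx_spec hF hc ((hh (pt hF c i)).2 (P_pt hF hc i))
    obtain ⟨b, hb, e'⟩ := lineIx_spec hF hc ((hg (pt hF c (lineIx hF c (sv h (pt hF c i))))).2 (P_pt hF hc _))
    show lineIx hF c (sv (g * h) _) = lineIx hF c (sv g (pt hF c (lineIx hF c (sv h (pt hF c i)))))
    rw [sv_mul, e, sv_smul, lineIx_smul hF hc ha, e', smul_smul, lineIx_smul hF hc (mul_ne_zero ha hb),
      lineIx_smul hF hc hb]
  · exact Or.inr hg

theorem mvP_one (i : Fin 126) : mvP hF c 1 i = i := by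
  rw [mvP, sv_one, ← one_smul F (pt hF c i), lineIx_smul hF hc one_ne_zero]

/-- the action on the points -/
noncomputable def rho : ↥(stabP hF c) →* Equiv.Perm (Fin 126) where
  toFun g := ⟨mvP hF c g, mvP hF c (g : ↥(SU 6 F 2))⁻¹,
    fun i => by
      rw [← (mvP_mul hF hc g.2 i).resolve_right (not_not.2 (inv_mem g.2)), inv_mul_cancel, mvP_one hF hc],
    fun i => by
      rw [← (mvP_mul hF hc (inv_mem g.2) i).resolve_right (not_not.2 g.2), mul_inv_cancel, mvP_one hF hc]⟩
  map_one' := Equiv.ext fun i => mvP_one hF hc i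
  map_mul' g h := Equiv.ext fun i => (mvP_mul hF hc h.2 i).resolve_right (not_not.2 g.2)

theorem rho_eq_one {g : ↥(stabP hF c)} :
    rho hF hc g = 1 ↔ (g : ↥(SU 6 F 2)) ∈ Subgroup.center ↥(SU 6 F 2) := by
  constructor
  · intro hg
    have key : ∀ v, P hF c v → ∃ s : F, sv (g : ↥(SU 6 F 2)) v = s • v := by
      intro v hv
      obtain ⟨i, a, ha, rfl⟩ := exists_pt hF hc hv
      obtain ⟨b, -, hb⟩ := lineIx_spec hF hc ((g.2 (pt hF c i)).2 (P_pt hF hc i))
      rw [show lineIx hF c (sv (g : ↥(SU 6 F 2)) (pt hF c i)) = i from Equiv.ext_iff.1 hg i] at hb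
      exact ⟨b, by rw [sv_smul, hb, smul_comm]⟩
    obtain ⟨X, hX⟩ : ∃ X : Fin 6 → Fin 6 → F, X = fun i => sv (g : ↥(SU 6 F 2)) (Pi.single i 1) := ⟨_, rfl⟩
    obtain ⟨w, hw0, hw1, -, -⟩ := F4.exists_omega hF
    have hoff : ∀ i j k : Fin 6, i ≠ j → k ≠ i → k ≠ j → X i k = 0 ∧ X i i + X j i = X i j + X j j := by
      intro i j k hij hki hkj
      obtain ⟨s, hs⟩ := key _ (Or.inl (show (supp (Pi.single i (1 : F) + (1 : F) • Pi.single j 1)).card = 2 by
        rw [supp_ei_add hij one_ne_zero, Finset.card_pair hij]))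
      obtain ⟨t, ht⟩ := key _ (Or.inl (show (supp (Pi.single i (1 : F) + w • Pi.single j 1)).card = 2 by
        rw [supp_ei_add hij hw0, Finset.card_pair hij]))
      rw [sv_add, sv_smul] at hs ht
      have a1 := congrFun hs k
      have a2 := congrFun ht k
      have b1 := congrFun hs i
      have b2 := congrFun hs j
      simp [hki, hkj, hij, Ne.symm hij] at a1 a2 b1 b2
      subst hX
      refine ⟨?_, by linear_combination b1 - b2⟩
      have : sv (g : ↥(SU 6 F 2)) (Pi.single j 1) k * (1 - w) = 0 := by linear_combination a1 - a2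
      have h0 := (mul_eq_zero.1 this).resolve_right (sub_ne_zero.2 (Ne.symm hw1))
      linear_combination a1 - h0
    have hzero : ∀ i k : Fin 6, i ≠ k → X i k = 0 := by
      intro i k hik
      obtain ⟨j, hj1, hj2⟩ : ∃ j : Fin 6, j ≠ i ∧ j ≠ k := by revert i k; decide
      exact (hoff i j k (Ne.symm hj1) (Ne.symm hik) (Ne.symm hj2)).1
    have hdiag : ∀ i, X i i = X 0 0 := by
      intro i
      by_cases h : i = 0
      · rw [h]
      obtain ⟨k, hk1, hk2⟩ : ∃ k : Fin 6, k ≠ i ∧ k ≠ 0 := by clear hoff hzero; revert i; decide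
      have := (hoff i 0 k h hk1 hk2).2
      rw [hzero 0 i (Ne.symm h), hzero i 0 h, add_zero, zero_add] at this
      exact this
    refine scalar_mem_center ⟨X 0 0, ?_⟩
    ext i j
    rw [show mat (g : ↥(SU 6 F 2)) i j = X j i by subst hX; simp [sv, mat]]
    by_cases h : i = j
    · subst h; simp [hdiag]
    · rw [hzero j i (Ne.symm h)]; simp [h]
  · intro hz
    obtain ⟨a, ha, hv⟩ := center_sv hF hz
    exact Equiv.ext fun i => by
      show lineIx hF c (sv _ _) = i
      rw [hv, lineIx_smul hF hc ha]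

/-- the group generated by the transvections -/
noncomputable def R3 : Subgroup ↥(stabP hF c) :=
  Subgroup.closure (Set.range fun i => (⟨_, tv_mem_stabP hF hc i⟩ : ↥(stabP hF c)))

/-- the subgroup of shape `3·U₄(3)` -/
noncomputable def K3 : Subgroup ↥(SU 6 F 2) := (⁅R3 hF hc, R3 hF hc⁆).map (stabP hF c).subtype

theorem rho_tv (i : Fin 126) :
    rho hF hc ⟨_, tv_mem_stabP hF hc i⟩ = sig hc (rf (phi_norm hc i)) :=
  Equiv.ext fun j => by
    show lineIx hF c (sv _ _) = lineIx6 c (act6 _ _)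
    rw [(tv_pt hF hc i j).1, (tv_pt hF hc i j).2.2.1, rf_dec]

theorem rho_R3 : (R3 hF hc).map (rho hF hc) = (W6 hc).map (sig hc) := by
  rw [R3, W6, MonoidHom.map_closure, MonoidHom.map_closure]
  congr 1
  ext p
  simp only [Set.mem_image, Set.mem_range, exists_exists_eq_and, rho_tv hF hc]

theorem rho_comm :
    (⁅R3 hF hc, R3 hF hc⁆).map (rho hF hc) = (Cfsg.Omega (ZMod 3) Q6).map (sig hc) := by
  rw [Subgroup.map_commutator, rho_R3, ← Subgroup.map_commutator]
  congr 1
  refine le_antisymm ?_ ?_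
  · exact Subgroup.commutator_mono le_top le_top
  · conv_lhs => rw [← omega_perfect]
    exact Subgroup.commutator_mono (omega_le hc) (omega_le hc)

theorem tv_not_mem_K3 (i : Fin 126) : tv hF (pt hF c i) ∉ K3 hF hc := by
  rintro ⟨x, hx, he⟩
  refine sig_rf_not_mem hc (phi_norm hc i) ?_
  rw [← rho_tv hF hc, ← rho_comm hF hc]
  exact ⟨x, hx, congrArg _ (Subtype.ext he)⟩

theorem R3_normal : (R3 hF hc).Normal := by
  refine ⟨fun x hx g => ?_⟩
  induction hx using Subgroup.closure_induction with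
  | mem y hy =>
    obtain ⟨i, rfl⟩ := hy
    obtain ⟨j, a, ha, e⟩ := exists_pt hF hc ((g.2 (pt hF c i)).2 (P_pt hF hc i))
    refine Subgroup.subset_closure ⟨j, Subtype.ext ?_⟩
    show tv hF (pt hF c j) = (g : ↥(SU 6 F 2)) * tv hF (pt hF c i) * (g : ↥(SU 6 F 2))⁻¹
    rw [conj_tv hF _ (pt_isotropic hF hc i), e, tv_smul hF (pt_isotropic hF hc j) ha]
  | one => rw [mul_one, mul_inv_cancel]; exact one_mem _
  | mul a b _ _ ha hb =>
    rw [show g * (a * b) * g⁻¹ = (g * a * g⁻¹) * (g * b * g⁻¹) by group]; exact mul_mem ha hb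
  | inv a _ ha => rw [show g * a⁻¹ * g⁻¹ = (g * a * g⁻¹)⁻¹ by group]; exact inv_mem ha

end cls

end CfsgLib.U43
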