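import Cfsg.Agent.ThreeTransp.U43.Vec

/-!
Monomial maps, good frames, and the stabilisers of the three sets of isotropic vectors.
-/

set_option autoImplicit false
set_option linter.unusedSectionVars false

namespace CfsgLib.U43

open Cfsg CfsgLib.Unitary CfsgLib.ThreeTransp CfsgLib.ThreeTransp.PSU62
open scoped Classical

variable {F : Type*} [Field F] [Fintype F] (hF : Fintype.card F = 4)
include hF

omit hF in
theorem supp_smul {a : F} (ha : a ≠ 0) (v : Fin 6 → F) : supp (a • v) = supp v :=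
  Finset.filter_congr fun i _ => by simp [ha]

theorem P_smul {c : ℕ} {a : F} (ha : a ≠ 0) (v : Fin 6 → F) : P hF c (a • v) ↔ P hF c v := by
  unfold P
  rw [supp_smul ha]
  simp only [Pi.smul_apply, smul_eq_mul, Finset.prod_mul_distrib, Finset.prod_const, Finset.card_univ,
    Fintype.card_fin]
  rw [show a ^ 6 = 1 by rw [show a ^ 6 = (a ^ 3) ^ 2 by ring, F4.cube_eq_one hF ha, one_pow], one_mul]

theorem hm_self_supp (v : Fin 6 → F) : hm v v = ((supp v).card : F) := by
  rw [supp, ← Finset.sum_boole]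
  refine Finset.sum_congr rfl fun i _ => ?_
  by_cases h : v i = 0
  · simp [h]
  · rw [if_pos h, ← pow_succ', F4.cube_eq_one hF h]

theorem hm_self_eq_zero_iff (v : Fin 6 → F) : hm v v = 0 ↔ Even (supp v).card := by
  rw [hm_self_supp hF]
  haveI : Fact (Nat.Prime 2) := ⟨Nat.prime_two⟩
  haveI : CharP F 2 := CharTwo.of_one_ne_zero_of_two_eq_zero one_ne_zero (two_zero hF)
  rw [CharP.cast_eq_zero_iff F 2, even_iff_two_dvd]

omit hF in
theorem prod_ne_zero_iff (v : Fin 6 → F) : ∏ i, v i ≠ 0 ↔ (supp v).card = 6 := by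
  constructor
  · intro h
    rw [Finset.prod_ne_zero_iff] at h
    rw [show supp v = Finset.univ from Finset.filter_true_of_mem fun i hi => h i hi]
    rfl
  · intro h
    have := Finset.eq_univ_of_card (supp v) h
    refine Finset.prod_ne_zero_iff.2 fun i _ => ?_
    have hi : i ∈ supp v := this ▸ Finset.mem_univ i
    exact (Finset.mem_filter.1 hi).2

theorem P_isotropic {c : ℕ} (hc : c < 4) {v : Fin 6 → F} (h : P hF c v) : v ≠ 0 ∧ hm v v = 0 := by
  have h2 : (supp v).card = 2 ∨ (supp v).card = 6 := h.imp id fun h => (prod_ne_zero_iff v).1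
    (by rw [h.2]; exact fun h0 => h.1 ((el_eq_zero hF hc).1 h0))
  refine ⟨fun h0 => ?_, (hm_self_eq_zero_iff hF v).2 (by rcases h2 with e | e <;> rw [e] <;> decide)⟩
  subst h0
  simp [supp] at h2

omit hF in
theorem sv_monoSU (hF : Fintype.card F = 4) (σ : Equiv.Perm (Fin 6)) {t : Fin 6 → F}
    (ht : ∏ i, t i = 1) (v : Fin 6 → F) (i : Fin 6) :
    sv (monoSU hF σ t ht) v i = t i * v (σ i) := monoMat_mulVec σ t v i

omit hF in
theorem supp_mono (hF : Fintype.card F = 4) (σ : Equiv.Perm (Fin 6)) {t : Fin 6 → F}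
    (ht : ∏ i, t i = 1) (v : Fin 6 → F) :
    (supp (sv (monoSU hF σ t ht) v)).card = (supp v).card := by
  refine Finset.card_equiv σ fun i => ?_
  have h0 : t i ≠ 0 := fun h => one_ne_zero (ht.symm.trans (Finset.prod_eq_zero (Finset.mem_univ i) h))
  simp [supp, sv_monoSU hF σ ht, h0]

theorem P_mono {c : ℕ} (σ : Equiv.Perm (Fin 6)) {t : Fin 6 → F} (ht : ∏ i, t i = 1)
    (v : Fin 6 → F) : P hF c (sv (monoSU hF σ t ht) v) ↔ P hF c v := by
  unfold P
  simp only [supp_mono hF σ ht, sv_monoSU hF σ ht, Finset.prod_mul_distrib, ht, one_mul,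
    Equiv.prod_comp σ v]

/-- Vectors of equal support size are related by an even monomial map, for full support when the
products agree. -/
theorem exists_mono {v v' : Fin 6 → F} (hcard : (supp v).card = (supp v').card)
    (h6 : (supp v).card = 6 → ∏ i, v i = ∏ i, v' i) :
    ∃ (σ : Equiv.Perm (Fin 6)) (t : Fin 6 → F) (ht : ∏ i, t i = 1),
      Equiv.Perm.sign σ = 1 ∧ sv (monoSU hF σ t ht) v = v' := by
  have hmem : ∀ (u : Fin 6 → F) i, i ∈ supp u ↔ u i ≠ 0 := fun u i => by simp [supp]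
  have hle : (supp v).card ≤ 6 := le_trans (Finset.card_le_univ _) (by simp)
  obtain ⟨σ, hsgn, hσ⟩ : ∃ σ : Equiv.Perm (Fin 6), Equiv.Perm.sign σ = 1 ∧
      ∀ i, v' i ≠ 0 ↔ v (σ i) ≠ 0 := by
    obtain ⟨e⟩ : Nonempty ({i // i ∈ supp v'} ≃ {i // i ∈ supp v}) :=
      ⟨Fintype.equivOfCardEq (by simp [hcard])⟩
    obtain ⟨σ, hσ⟩ : ∃ σ : Equiv.Perm (Fin 6), ∀ i, v' i ≠ 0 ↔ v (σ i) ≠ 0 := by
      refine ⟨e.extendSubtype, fun i => ?_⟩
      rw [← hmem, ← hmem]
      exact ⟨e.extendSubtype_mem i, fun h => by_contra fun hi => e.extendSubtype_not_mem i hi h⟩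
    rcases Int.units_eq_one_or (Equiv.Perm.sign σ) with hs | hs
    · exact ⟨σ, hs, hσ⟩
    obtain ⟨a, b, hab, hz⟩ : ∃ a b : Fin 6, a ≠ b ∧ (v' a = 0 ↔ v' b = 0) := by
      by_cases h0 : v' 0 = 0 <;> by_cases h1 : v' 1 = 0 <;> by_cases h2 : v' 2 = 0 <;>
        first
          | exact ⟨0, 1, by decide, by tauto⟩
          | exact ⟨0, 2, by decide, by tauto⟩
          | exact ⟨1, 2, by decide, by tauto⟩
    refine ⟨σ * Equiv.swap a b, by rw [map_mul, hs, Equiv.Perm.sign_swap hab]; rfl, fun i => ?_⟩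
    rw [Equiv.Perm.mul_apply, ← hσ]
    by_cases h1 : i = a
    · subst h1; rw [Equiv.swap_apply_left]; exact not_congr hz
    by_cases h2 : i = b
    · subst h2; rw [Equiv.swap_apply_right]; exact not_congr hz.symm
    rw [Equiv.swap_apply_of_ne_of_ne h1 h2]
  obtain ⟨t, ht, htv⟩ : ∃ t : Fin 6 → F, (∏ i, t i = 1) ∧ ∀ i, t i * v (σ i) = v' i := by
    obtain ⟨t₀, ht₀⟩ : ∃ t₀ : Fin 6 → F, ∀ i, t₀ i = if v' i = 0 then 1 else v' i / v (σ i) :=
      ⟨_, fun _ => rfl⟩
    have ht₀n : ∀ i, t₀ i ≠ 0 := fun i => by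
      rw [ht₀]; split
      · exact one_ne_zero
      · exact div_ne_zero ‹_› ((hσ i).1 ‹_›)
    have heq : ∀ i, t₀ i * v (σ i) = v' i := fun i => by
      rw [ht₀]; split
      · rename_i h
        rw [h, one_mul]
        exact not_not.1 fun hh => (hσ i).2 hh h
      · exact div_mul_cancel₀ _ ((hσ i).1 ‹_›)
    by_cases hc6 : (supp v).card = 6
    · refine ⟨t₀, ?_, heq⟩
      have hp : ∏ i, v (σ i) ≠ 0 := by rw [Equiv.prod_comp σ v]; exact (prod_ne_zero_iff v).2 hc6
      refine mul_right_cancel₀ hp ?_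
      rw [← Finset.prod_mul_distrib, one_mul, Equiv.prod_comp σ v, h6 hc6]
      exact Finset.prod_congr rfl fun i _ => heq i
    obtain ⟨j, hj⟩ : ∃ j, v' j = 0 := by
      by_contra h
      push Not at h
      exact hc6 (hcard ▸ (prod_ne_zero_iff v').1 (Finset.prod_ne_zero_iff.2 fun i _ => h i))
    refine ⟨Function.update t₀ j (t₀ j * (∏ i, t₀ i)⁻¹), ?_, fun i => ?_⟩
    · rw [Finset.prod_update_of_mem (Finset.mem_univ j), mul_right_comm,
        ← Finset.prod_eq_mul_prod_sdiff_singleton_of_mem (Finset.mem_univ j) t₀]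
      exact mul_inv_cancel₀ (Finset.prod_ne_zero_iff.2 fun i _ => ht₀n i)
    · by_cases h : i = j
      · subst h
        rw [hj, not_not.1 fun hh => (hσ i).2 hh hj, mul_zero]
      · rw [Function.update_of_ne h, heq]
  exact ⟨σ, t, ht, hsgn, funext fun i => by rw [sv_monoSU hF σ ht, htv]⟩

/-- a neighbour in a good frame -/
def Adj (c : ℕ) (v w : Fin 6 → F) : Prop :=
  hm w w ≠ 0 ∧ hm v w = 0 ∧ ∀ a : F, a ≠ 0 → P hF c (v + a • w)

/-- the neighbours -/
noncomputable def nbrs (c : ℕ) (v : Fin 6 → F) : Finset (Fin 6 → F) :=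
  Finset.univ.filter fun w => Adj hF c v w

theorem Adj_mono {c : ℕ} (σ : Equiv.Perm (Fin 6)) {t : Fin 6 → F} (ht : ∏ i, t i = 1)
    (v w : Fin 6 → F) :
    Adj hF c (sv (monoSU hF σ t ht) v) (sv (monoSU hF σ t ht) w) ↔ Adj hF c v w := by
  have h : ∀ x y : Fin 6 → F, hm (sv (monoSU hF σ t ht) x) (sv (monoSU hF σ t ht) y) = hm x y :=
    fun x y => sv_herm _ x y
  unfold Adj
  rw [h, h]
  simp only [← sv_smul, ← sv_add, P_mono hF σ ht]

theorem card_nbrs_mono {c : ℕ} (σ : Equiv.Perm (Fin 6)) {t : Fin 6 → F} (ht : ∏ i, t i = 1)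
    (v : Fin 6 → F) : (nbrs hF c (sv (monoSU hF σ t ht) v)).card = (nbrs hF c v).card := by
  symm
  refine Finset.card_bij (fun w _ => sv (monoSU hF σ t ht) w) (fun w hw => ?_) ?_ fun w hw => ?_
  · simp only [nbrs, Finset.mem_filter, Finset.mem_univ, true_and] at hw ⊢
    exact (Adj_mono hF σ ht v w).2 hw
  · intro a _ b _ h
    simpa [sv_inv_sv] using congrArg (sv (monoSU hF σ t ht)⁻¹) h
  · refine ⟨sv (monoSU hF σ t ht)⁻¹ w, ?_, sv_sv_inv _ _⟩
    simp only [nbrs, Finset.mem_filter, Finset.mem_univ, true_and] at hw ⊢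
    rw [← sv_sv_inv (monoSU hF σ t ht) w] at hw
    exact (Adj_mono hF σ ht v _).1 hw

theorem card_nbrs_vec {c n : ℕ} (hc : c < 4) (hn : n < 4096) :
    (nbrs hF c (vec hF n)).card = ((List.range 4096).filter (adjN c n)).length := by
  refine card_filter_vec hF _ _ fun m hm' => ?_
  unfold Adj adjN
  have hz : ∀ x y, hm (vec hF x) (vec hF y) = 0 ↔ hN x y = 0 := fun x y => by
    rw [hm_vec hF]
    refine el_eq_zero hF ?_
    have h : ∀ z, par z ≤ 1 := fun z => Nat.and_le_right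
    have := h ((lo x &&& lo y) ^^^ (lo x &&& hi y) ^^^ (hi x &&& hi y))
    have := h ((lo x &&& hi y) ^^^ (hi x &&& lo y))
    unfold hN
    omega
  have hx : ∀ a, n ^^^ smulN a m < 4096 := by
    intro a
    have ho : ∀ k, omN k < 2 ^ 12 := fun k => Nat.or_lt_two_pow
      (lt_of_le_of_lt Nat.and_le_right (by norm_num))
      (by
        have : lo k ^^^ hi k < 2 ^ 6 := Nat.xor_lt_two_pow
          (lt_of_le_of_lt Nat.and_le_right (by norm_num)) (lt_of_le_of_lt Nat.and_le_right (by norm_num))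
        rw [Nat.shiftLeft_eq]; omega)
    refine Nat.xor_lt_two_pow (n := 12) hn ?_
    match a with
    | 0 => norm_num [smulN]
    | 1 => exact hm'
    | 2 => exact ho _
    | (k + 3) => exact ho _
  simp only [Bool.and_eq_true, Bool.not_eq_true', ← Bool.not_eq_true, Nat.beq_eq, ne_eq, hz,
    List.all_cons, List.all_nil, Bool.and_true, ← P_vec hF hc (hx _), vec_xor hF,
    vec_smul hF (show (1 : ℕ) < 4 by norm_num), vec_smul hF (show (2 : ℕ) < 4 by norm_num),
    vec_smul hF (show (3 : ℕ) < 4 by norm_num)]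
  refine and_congr_right fun _ => and_congr_right fun _ => ⟨fun h => ⟨h _ ?_, h _ ?_, h _ ?_⟩, ?_⟩
  any_goals exact fun h0 => absurd ((el_eq_zero hF (by norm_num)).1 h0) (by norm_num)
  rintro ⟨h1, h2, h3⟩ a ha
  obtain ⟨b, hb, rfl⟩ := el_surj hF a
  interval_cases b
  exacts [absurd rfl ha, h1, h2, h3]

theorem card_nbrs {c : ℕ} (hc : c < 4) {v : Fin 6 → F} (hv : hm v v ≠ 0) :
    (nbrs hF c v).card ≤ 15 ∧ (c = 0 → (supp v).card ≠ 1 → (nbrs hF c v).card < 15) := by
  have hle : (supp v).card ≤ 6 := le_trans (Finset.card_le_univ _) (by simp)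
  have hodd : ¬ Even (supp v).card := fun h => hv ((hm_self_eq_zero_iff hF v).2 h)
  have key : ∀ n < 4096, (supp (vec hF n)).card = (supp v).card →
      (nbrs hF c v).card = ((List.range 4096).filter (adjN c n)).length := by
    intro n hn he
    obtain ⟨σ, t, ht, -, hv'⟩ := exists_mono hF he (fun h6 => absurd
      (show Even (supp v).card by rw [← he, h6]; decide) hodd)
    rw [← card_nbrs_vec hF hc hn, ← hv', card_nbrs_mono hF σ ht]
  have hadj := adj_check
  simp only [List.map_cons, List.map_nil, List.cons.injEq, and_true] at hadj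
  obtain ⟨⟨a0, a1, a2, a3⟩, ⟨b0, b1, b2, b3⟩, e0, e1, e2, e3⟩ := hadj
  rcases (show (supp v).card = 1 ∨ (supp v).card = 3 ∨ (supp v).card = 5 by
    rcases Nat.not_even_iff_odd.1 hodd with ⟨k, hk⟩; omega) with h | h | h
  · rw [key 1 (by norm_num) (by rw [supp_vec hF, h]; rfl)]
    refine ⟨?_, fun _ h1 => absurd h h1⟩
    interval_cases c <;> omega
  · rw [key 7 (by norm_num) (by rw [supp_vec hF, h]; rfl)]
    refine ⟨?_, fun h0 _ => by subst h0; omega⟩
    interval_cases c <;> omega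
  · rw [key 31 (by norm_num) (by rw [supp_vec hF, h]; rfl)]
    refine ⟨?_, fun h0 _ => by subst h0; omega⟩
    interval_cases c <;> omega

end CfsgLib.U43
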