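import Cfsg.Agent.ThreeTransp.U43.Mono

/-!
An element of order three commuting with one of order seven is a scalar.
-/

set_option autoImplicit false
set_option linter.unusedSectionVars false

namespace CfsgLib.U43

open Cfsg CfsgLib.Unitary CfsgLib.ThreeTransp CfsgLib.ThreeTransp.PSU62

variable {F : Type*} [Field F] [Fintype F] (hF : Fintype.card F = 4)

/-- the kernel of `x³ + x + 1` -/
def Ea (x : ↥(SU 6 F 2)) (u : Fin 6 → F) : Prop := sv x (sv x (sv x u)) + sv x u + u = 0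

theorem Ea_three {x : ↥(SU 6 F 2)} {u : Fin 6 → F} (hF : Fintype.card F = 4) (h : Ea x u) :
    sv x (sv x (sv x u)) = sv x u + u := by
  have h2 := vec_add_self hF
  rw [Ea] at h
  calc sv x (sv x (sv x u)) = sv x (sv x (sv x u)) + ((sv x u + sv x u) + (u + u)) := by
        rw [h2, h2, add_zero, add_zero]
    _ = (sv x (sv x (sv x u)) + sv x u + u) + (sv x u + u) := by abel
    _ = sv x u + u := by rw [h, zero_add]

omit [Fintype F] in
theorem sv_zero (x : ↥(SU 6 F 2)) : sv x (0 : Fin 6 → F) = 0 := Matrix.mulVec_zero _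

include hF

theorem ea_coeff {a b c : F} (h1 : a * a ^ 2 + b * (b ^ 2 + c ^ 2) + c * c ^ 2 = 1)
    (h2 : a * c ^ 2 + b * a ^ 2 + b * (b ^ 2 + c ^ 2) + c * c ^ 2 + c * (b ^ 2 + c ^ 2) = 0)
    (h3 : a * (b ^ 2 + c ^ 2) + b * c ^ 2 + c * a ^ 2 + c * (b ^ 2 + c ^ 2) = 0) :
    b = 0 ∧ c = 0 := by
  obtain ⟨i, hi, rfl⟩ := el_surj hF a
  obtain ⟨j, hj, rfl⟩ := el_surj hF b
  obtain ⟨k, hk, rfl⟩ := el_surj hF c
  obtain ⟨h0, hn, hw3, hs⟩ := om_spec hF
  have two : (2 : F) = 0 := two_zero hF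
  interval_cases i <;> interval_cases j <;> interval_cases k <;> simp only [el] at h1 h2 h3 ⊢ <;> grind

/-- `x⁻¹` interchanges the two kernels -/
theorem Ea_or_Ea_inv {x : ↥(SU 6 F 2)} (hx7 : x ^ 7 = 1) (hx : x ≠ 1) :
    (∃ u, u ≠ 0 ∧ Ea x u) ∨ ∃ u, u ≠ 0 ∧ Ea x⁻¹ u := by
  obtain ⟨v, hv⟩ : ∃ v, sv x v ≠ v := by
    by_contra h
    push Not at h
    exact hx (sv_ext fun v => (h v).trans (sv_one v).symm)
  obtain ⟨w, hwd⟩ : ∃ w, sv x v + v = w := ⟨_, rfl⟩
  have h2 := vec_add_self hF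
  have hw : w ≠ 0 := fun h => hv (by
    rw [← hwd, add_eq_zero_iff_eq_neg] at h
    rw [h]; funext i; exact F4.neg_eq hF _)
  obtain ⟨p, hp⟩ : ∃ p : ℕ → Fin 6 → F, ∀ k, p k = sv (x ^ k) v := ⟨_, fun _ => rfl⟩
  have hstep : ∀ k, sv x (p k) = p (k + 1) := fun k => by rw [hp, hp, ← sv_mul, pow_succ']
  have h70 : p 7 = p 0 := by rw [hp, hp, hx7, pow_zero]
  have hw' : w = p 1 + p 0 := by rw [← hwd, hp, hp, pow_one, pow_zero, sv_one]
  obtain ⟨b, hb⟩ : ∃ b, sv x (sv x (sv x w)) + sv x (sv x w) + w = b := ⟨_, rfl⟩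
  by_cases hb0 : b = 0
  · right
    refine ⟨sv x (sv x (sv x w)), fun h => hw ?_, ?_⟩
    · have := congrArg (fun y => sv x⁻¹ (sv x⁻¹ (sv x⁻¹ y))) h
      simpa [sv_inv_sv, sv_zero] using this
    · rw [Ea, sv_inv_sv, sv_inv_sv, sv_inv_sv, ← hb0, ← hb]
      abel
  · left
    refine ⟨b, hb0, ?_⟩
    have hb' : b = p 4 + p 3 + p 3 + p 2 + p 1 + p 0 := by
      rw [← hb, hw']
      simp only [sv_add, hstep]
      abel
    rw [Ea, hb']
    simp only [sv_add, hstep, Nat.reduceAdd, h70]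
    have : ∀ a b c d e f g : Fin 6 → F, a + g + g + f + e + d + (g + f + f + e + d + c) + (g + f + f + e + d + c) = a + f + e + d := by
      intro a b c d e f g
      calc _ = (a + f + e + d) + ((g + g) + ((g + g) + (f + f) + (f + f) + (e + e) + (d + d) + (c + c))) := by abel
        _ = _ := by simp only [h2, add_zero]
    calc _ = ((p 0 + p 0) + (p 6 + p 6) + (p 5 + p 5) + (p 4 + p 4) + (p 4 + p 4) + (p 3 + p 3)
          + (p 3 + p 3) + (p 2 + p 2) + (p 1 + p 1)) := by abel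
      _ = 0 := by simp only [h2, add_zero]

theorem Ea_orth {x : ↥(SU 6 F 2)} {u v : Fin 6 → F} (hu : Ea x u) (hv : Ea x v) : hm u v = 0 := by
  obtain ⟨y, hy⟩ : ∃ y, sv x v + v = y := ⟨_, rfl⟩
  have h3 := Ea_three hF hv
  have hyv : y + sv x (sv x y) + sv x (sv x (sv x y)) = v := by
    rw [← hy]
    simp only [sv_add, h3]
    calc _ = v + ((sv x v + sv x v) + (sv x (sv x v) + sv x (sv x v)) + (sv x v + sv x v) + (v + v)) := by abel
      _ = v := by simp only [vec_add_self hF, add_zero]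
  have key : hm (sv x (sv x (sv x u)) + sv x u + u) (sv x (sv x (sv x y))) = 0 := by
    rw [show sv x (sv x (sv x u)) + sv x u + u = 0 from hu, hm_zeroL]
  have hinv : ∀ a b, hm (sv x a) (sv x b) = hm a b := fun a b => sv_herm x a b
  rw [hm_addL, hm_addL, hinv, hinv, hinv, hinv, ← hm_addR hF, ← hm_addR hF, hyv] at key
  exact key

omit hF in
theorem Ea_sv {x z : ↥(SU 6 F 2)} (hzx : Commute z x) {u : Fin 6 → F} (hu : Ea x u) :
    Ea x (sv z u) := by
  have hc : ∀ a, sv x (sv z a) = sv z (sv x a) := fun a => by rw [← sv_mul, ← sv_mul, hzx.eq]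
  rw [Ea, hc, hc, hc, ← sv_add, ← sv_add, show sv x (sv x (sv x u)) + sv x u + u = 0 from hu, sv_zero]

theorem Ea_indep {x : ↥(SU 6 F 2)} {u : Fin 6 → F} (hu : Ea x u) (hu0 : u ≠ 0) {a b c : F}
    (h : a • u + b • sv x u + c • sv x (sv x u) = 0) : a = 0 ∧ b = 0 ∧ c = 0 := by
  have h3 := Ea_three hF hu
  have two : (2 : F) = 0 := two_zero hF
  have hpair : ∀ s t : F, s • u + t • sv x u = 0 → s = 0 ∧ t = 0 := by
    intro s t hst
    by_cases ht : t = 0
    · subst ht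
      rw [zero_smul, add_zero, smul_eq_zero] at hst
      exact ⟨hst.resolve_right hu0, rfl⟩
    exfalso
    obtain ⟨r, hr⟩ : ∃ r, sv x u = r • u := by
      refine ⟨-(t⁻¹ * s), ?_⟩
      have h' := congrArg (fun v => t⁻¹ • v) hst
      simp only [smul_add, smul_smul, inv_mul_cancel₀ ht, one_smul, smul_zero] at h'
      rw [neg_smul, eq_neg_iff_add_eq_zero, add_comm]
      exact h'
    rw [hr, sv_smul, hr, sv_smul, sv_smul, hr, smul_smul, smul_smul] at h3
    have h4 : (r * r * r - (r + 1)) • u = 0 := by rw [sub_smul, add_smul, one_smul, h3, sub_self]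
    have h5 := (smul_eq_zero.1 h4).resolve_right hu0
    by_cases hr0 : r = 0
    · subst hr0; simp at h5
    · have h6 : r ^ 3 = 1 := F4.cube_eq_one hF hr0
      exact hr0 (by linear_combination -h5 + h6)
  by_cases hc : c = 0
  · subst hc
    rw [zero_smul, add_zero] at h
    exact ⟨(hpair a b h).1, (hpair a b h).2, rfl⟩
  exfalso
  obtain ⟨p, q, hpq⟩ : ∃ p q : F, sv x (sv x u) = p • u + q • sv x u := by
    refine ⟨-(c⁻¹ * a), -(c⁻¹ * b), ?_⟩
    have h' := congrArg (fun v => c⁻¹ • v) h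
    simp only [smul_add, smul_smul, inv_mul_cancel₀ hc, one_smul, smul_zero] at h'
    rw [neg_smul, neg_smul, ← neg_add, eq_neg_iff_add_eq_zero, add_comm]
    exact h'
  rw [hpq, sv_add, sv_smul, sv_smul, hpq] at h3
  obtain ⟨e1, e2⟩ := hpair (q * p - 1) (p + q * q - 1) (by
    linear_combination (norm := module) h3)
  have hq : q * q * q - q + 1 = 0 := by linear_combination q * e2 - e1
  by_cases hq0 : q = 0
  · subst hq0; simp at hq
  · exact hq0 (by linear_combination -hq + F4.cube_eq_one hF hq0 + two)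

/-- On the kernel of `x³ + x + 1` a commuting element of order three is a scalar. -/
theorem scalar_on_Ea {x z : ↥(SU 6 F 2)} (hz : z ^ 3 = 1) (hzx : Commute z x) {u v : Fin 6 → F}
    (hu : Ea x u) (hu0 : u ≠ 0) (hv : Ea x⁻¹ v) (hv0 : v ≠ 0) :
    ∃ a : F, ∀ k : Fin 3, sv z (sv (x ^ (k : ℕ)) u) = a • sv (x ^ (k : ℕ)) u := by
  have h3 := Ea_three hF hu
  have h3v := Ea_three hF hv
  obtain ⟨B, hB⟩ : ∃ B : Fin 6 → Fin 6 → F,
      B = ![u, sv x u, sv x (sv x u), v, sv x⁻¹ v, sv x⁻¹ (sv x⁻¹ v)] := ⟨_, rfl⟩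
  have hT : ∀ w, Ea x⁻¹ w → sv x (sv x (sv x w)) + sv x u + sv x w - sv x u + w = 0 → w = 0 := by
    intro w hw hw'
    have hw'' : sv x (sv x (sv x w)) + sv x w + w = 0 := by rw [← hw']; abel
    have e : sv x⁻¹ (sv x⁻¹ (sv x⁻¹ (sv x (sv x (sv x w)) + sv x w + w))) = 0 := by
      rw [hw'', sv_zero, sv_zero, sv_zero]
    simp only [sv_add, sv_inv_sv, Ea_three hF hw] at e
    have e2 : sv x⁻¹ (sv x⁻¹ w) + sv x⁻¹ w = 0 := by
      rw [← e]
      calc _ = sv x⁻¹ (sv x⁻¹ w) + sv x⁻¹ w + (w + w) := by rw [vec_add_self hF, add_zero]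
        _ = _ := by abel
    by_contra hw0
    exact one_ne_zero ((Ea_indep hF hw hw0 (a := 0) (b := 1) (c := 1)
      (by rw [zero_smul, one_smul, one_smul, zero_add, add_comm]; exact e2)).2.1)
  have hexp : ∀ c : Fin 6 → F, (∑ i, c i • B i) = (c 0 • u + c 1 • sv x u + c 2 • sv x (sv x u)) +
      (c 3 • v + c 4 • sv x⁻¹ v + c 5 • sv x⁻¹ (sv x⁻¹ v)) := fun c => by
    subst hB
    simp [Fin.sum_univ_six]
    abel
  have hEa : ∀ s t r : F, Ea x (s • u + t • sv x u + r • sv x (sv x u)) := by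
    intro s t r
    rw [Ea]
    simp only [sv_add, sv_smul, h3]
    calc _ = s • ((sv x u + sv x u) + (u + u)) + t • ((sv x (sv x u) + sv x (sv x u)) + (sv x u + sv x u))
          + r • ((sv x u + sv x u) + (u + u) + (sv x (sv x u) + sv x (sv x u))) := by module
      _ = 0 := by simp only [vec_add_self hF, add_zero, smul_zero]
  have hEb : ∀ s t r : F, Ea x⁻¹ (s • v + t • sv x⁻¹ v + r • sv x⁻¹ (sv x⁻¹ v)) := by
    intro s t r
    rw [Ea]
    simp only [sv_add, sv_smul, h3v]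
    calc _ = s • ((sv x⁻¹ v + sv x⁻¹ v) + (v + v))
          + t • ((sv x⁻¹ (sv x⁻¹ v) + sv x⁻¹ (sv x⁻¹ v)) + (sv x⁻¹ v + sv x⁻¹ v))
          + r • ((sv x⁻¹ v + sv x⁻¹ v) + (v + v) + (sv x⁻¹ (sv x⁻¹ v) + sv x⁻¹ (sv x⁻¹ v))) := by module
      _ = 0 := by simp only [vec_add_self hF, add_zero, smul_zero]
  have hli : LinearIndependent F B := by
    refine Fintype.linearIndependent_iff.2 fun c hc => ?_
    rw [hexp] at hc
    have hb0 := hT _ (hEb (c 3) (c 4) (c 5)) (by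
      have ha := hEa (c 0) (c 1) (c 2)
      rw [show c 0 • u + c 1 • sv x u + c 2 • sv x (sv x u) =
        -(c 3 • v + c 4 • sv x⁻¹ v + c 5 • sv x⁻¹ (sv x⁻¹ v)) from eq_neg_of_add_eq_zero_left hc] at ha
      rw [show ∀ w : Fin 6 → F, -w = w from fun w => funext fun i => F4.neg_eq hF _, Ea] at ha
      rw [← ha]; abel)
    rw [hb0, add_zero] at hc
    obtain ⟨a0, a1, a2⟩ := Ea_indep hF hu hu0 hc
    obtain ⟨a3, a4, a5⟩ := Ea_indep hF hv hv0 hb0
    intro i
    fin_cases i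
    exacts [a0, a1, a2, a3, a4, a5]
  obtain ⟨c, hc⟩ : ∃ c : Fin 6 → F, ∑ i, c i • B i = sv z u := by
    have hsp : sv z u ∈ Submodule.span F (Set.range B) := by
      rw [hli.span_eq_top_of_card_eq_finrank' (by simp)]
      exact Submodule.mem_top
    exact (Submodule.mem_span_range_iff_exists_fun F).1 hsp
  rw [hexp] at hc
  have hb0 := hT _ (hEb (c 3) (c 4) (c 5)) (by
    have ha := hEa (c 0) (c 1) (c 2)
    have hz' := Ea_sv hzx hu
    rw [← hc, Ea] at hz'
    simp only [sv_add] at hz'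
    rw [Ea] at ha
    simp only [sv_add] at ha ⊢
    linear_combination (norm := module) hz' - ha)
  rw [hb0, add_zero] at hc
  obtain ⟨a, b, r, hzu⟩ : ∃ a b r, sv z u = a • u + b • sv x u + r • sv x (sv x u) := ⟨_, _, _, hc.symm⟩
  have hcz : ∀ w, sv z (sv x w) = sv x (sv z w) := fun w => by rw [← sv_mul, ← sv_mul, hzx.eq]
  have hz3 : sv z (sv z (sv z u)) = u := by
    rw [← sv_mul, ← sv_mul, ← pow_two, ← pow_succ, hz, sv_one]
  have h4 : sv x (sv x (sv x (sv x u))) = sv x (sv x u) + sv x u := by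
    conv_lhs => rw [h3, sv_add]
  simp only [hzu, sv_add, sv_smul, hcz, h3, h4, smul_add, smul_smul] at hz3
  obtain ⟨e1, e2, e3⟩ := Ea_indep hF hu hu0
    (a := a * a ^ 2 + b * (b ^ 2 + r ^ 2) + r * r ^ 2 - 1)
    (b := a * r ^ 2 + b * a ^ 2 + b * (b ^ 2 + r ^ 2) + r * r ^ 2 + r * (b ^ 2 + r ^ 2))
    (c := a * (b ^ 2 + r ^ 2) + b * r ^ 2 + r * a ^ 2 + r * (b ^ 2 + r ^ 2)) (by
      have h2 := two_zero hF
      linear_combination (norm := skip) hz3
      match_scalars <;> grind)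
  obtain ⟨hb, hr⟩ := ea_coeff hF (sub_eq_zero.1 e1) e2 e3
  subst hb hr
  refine ⟨a, fun k => ?_⟩
  have hzu' : sv z u = a • u := by rw [hzu, zero_smul, zero_smul, add_zero, add_zero]
  fin_cases k
  · simpa using hzu'
  · simp [hcz, hzu', sv_smul]
  · simp [pow_two, sv_mul, hcz, hzu', sv_smul]

/-- An element of order three commuting with one of order seven is central. -/
theorem scalar_of_seven {x z : ↥(SU 6 F 2)} (hx7 : x ^ 7 = 1) (hx : x ≠ 1) (hz : z ^ 3 = 1)
    (hzx : Commute z x) : z ∈ Subgroup.center ↥(SU 6 F 2) := by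
  have hboth : ∀ y : ↥(SU 6 F 2), (∃ u, u ≠ 0 ∧ Ea y u) → ∃ v, v ≠ 0 ∧ Ea y⁻¹ v := by
    rintro y ⟨u, hu0, hu⟩
    by_contra hno
    push Not at hno
    have hinj : Function.Injective (fun w => w + sv y (sv y w) + sv y (sv y (sv y w))) := by
      intro s t hst
      have h : (s - t) + sv y (sv y (s - t)) + sv y (sv y (sv y (s - t))) = 0 := by
        simp only [sv_sub] at hst ⊢
        linear_combination (norm := module) hst
      by_contra hne
      refine hno (sv y (sv y (sv y (s - t)))) (fun h0 => hne ?_) ?_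
      · have := congrArg (fun w => sv y⁻¹ (sv y⁻¹ (sv y⁻¹ w))) h0
        simp only [sv_inv_sv, sv_zero] at this
        exact sub_eq_zero.1 this
      · rw [Ea, sv_inv_sv, sv_inv_sv, sv_inv_sv, ← h]
    refine hu0 (hm_nondeg' hF fun w => ?_)
    obtain ⟨s, rfl⟩ := (Finite.injective_iff_surjective.1 hinj) w
    have hinv : ∀ a b, hm (sv y a) (sv y b) = hm a b := fun a b => sv_herm y a b
    have key : hm (sv y (sv y (sv y u)) + sv y u + u) (sv y (sv y (sv y s))) = 0 := by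
      rw [show sv y (sv y (sv y u)) + sv y u + u = 0 from hu, hm_zeroL]
    rw [hm_addL, hm_addL, hinv, hinv, hinv, hinv, ← hm_addR hF, ← hm_addR hF] at key
    exact key
  obtain ⟨u, hu0, hu, v, hv0, hv⟩ : ∃ u, u ≠ 0 ∧ Ea x u ∧ ∃ v, v ≠ 0 ∧ Ea x⁻¹ v := by
    rcases Ea_or_Ea_inv hF hx7 hx with ⟨u, h1, h2⟩ | ⟨v, h1, h2⟩
    · exact ⟨u, h1, h2, hboth x ⟨u, h1, h2⟩⟩
    · obtain ⟨u, h3, h4⟩ := hboth x⁻¹ ⟨v, h1, h2⟩
      rw [inv_inv] at h4
      exact ⟨u, h3, h4, v, h1, h2⟩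
  obtain ⟨a, ha⟩ := scalar_on_Ea hF hz hzx hu hu0 hv hv0
  obtain ⟨b, hb⟩ := scalar_on_Ea hF hz hzx.inv_right hv hv0 (by rw [inv_inv]; exact hu) hu0
  have hu' : ∀ k, Ea x (sv (x ^ k) u) := fun k => Ea_sv ((Commute.refl x).pow_left k) hu
  have hv' : ∀ k, Ea x⁻¹ (sv (x⁻¹ ^ k) v) := fun k => Ea_sv ((Commute.refl x⁻¹).pow_left k) hv
  obtain ⟨B, hB⟩ : ∃ B : Fin 3 ⊕ Fin 3 → Fin 6 → F,
      B = Sum.elim (fun k : Fin 3 => sv (x ^ (k : ℕ)) u) (fun k : Fin 3 => sv (x⁻¹ ^ (k : ℕ)) v) := ⟨_, rfl⟩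
  have hli : LinearIndependent F B := by
    refine Fintype.linearIndependent_iff.2 fun c hc => ?_
    subst hB
    simp only [Fintype.sum_sum_type, Sum.elim_inl, Sum.elim_inr, Fin.sum_univ_three, Fin.val_zero,
      Fin.val_one, Fin.val_two, pow_zero, pow_one, pow_two, sv_one, sv_mul] at hc
    obtain ⟨X, hX⟩ : ∃ X, c (.inl 0) • u + c (.inl 1) • sv x u + c (.inl 2) • sv x (sv x u) = X := ⟨_, rfl⟩
    obtain ⟨Y, hY⟩ : ∃ Y, c (.inr 0) • v + c (.inr 1) • sv x⁻¹ v + c (.inr 2) • sv x⁻¹ (sv x⁻¹ v) = Y :=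
      ⟨_, rfl⟩
    rw [hX, hY] at hc
    have hlin : ∀ (y : ↥(SU 6 F 2)) (w : Fin 6 → F), Ea y w → ∀ p q r : F,
        Ea y (p • w + q • sv y w + r • sv y (sv y w)) := by
      intro y w hw p q r
      have h1 := Ea_sv (Commute.refl y) hw
      have h2 := Ea_sv (Commute.refl y) h1
      rw [Ea] at hw h1 h2 ⊢
      simp only [sv_add, sv_smul]
      linear_combination (norm := module) p • hw + q • h1 + r • h2
    have hXa : Ea x X := hX ▸ hlin x u hu _ _ _
    have hYb : Ea x⁻¹ Y := hY ▸ hlin x⁻¹ v hv _ _ _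
    have hXY : X = Y := by
      rw [eq_neg_of_add_eq_zero_left hc]
      exact funext fun i => F4.neg_eq hF _
    have hX0 : X = 0 := by
      by_contra hne
      have e := Ea_three hF (hXY ▸ hYb)
      have e2 : sv x (sv x (sv x X)) + sv x (sv x X) + X = 0 := by
        have h' := congrArg (fun w => sv x (sv x (sv x w))) e
        simp only [sv_add, sv_sv_inv] at h'
        calc _ = sv x (sv x (sv x X)) + sv x (sv x X) + (sv x (sv x X) + sv x (sv x (sv x X))) := by
              rw [← h']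
          _ = (sv x (sv x (sv x X)) + sv x (sv x (sv x X))) + (sv x (sv x X) + sv x (sv x X)) := by abel
          _ = 0 := by simp only [vec_add_self hF, add_zero]
      rw [Ea] at hXa
      have e3 : (1 : F) • sv x X + (1 : F) • sv x (sv x X) = 0 := by
        rw [one_smul, one_smul]
        calc _ = sv x X + sv x (sv x X) + ((sv x (sv x (sv x X)) + sv x (sv x (sv x X))) + (X + X)) := by
              simp only [vec_add_self hF, add_zero]
          _ = (sv x (sv x (sv x X)) + sv x (sv x X) + X) + (sv x (sv x (sv x X)) + sv x X + X) := by abel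
          _ = 0 := by rw [e2, hXa, add_zero]
      exact one_ne_zero ((Ea_indep hF hXa hne (a := 0) (b := 1) (c := 1)
        (by rw [zero_smul, zero_add]; exact e3)).2.1)
    rw [hX0, zero_add] at hc
    obtain ⟨a0, a1, a2⟩ := Ea_indep hF hu hu0 (hX.trans hX0)
    obtain ⟨b0, b1, b2⟩ := Ea_indep hF hv hv0 (hY.trans hc)
    rintro (k | k) <;> fin_cases k
    exacts [a0, a1, a2, b0, b1, b2]
  have hspan : ∀ w : Fin 6 → F, w ∈ Submodule.span F (Set.range B) := fun w => by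
    rw [hli.span_eq_top_of_card_eq_finrank' (by simp)]
    exact Submodule.mem_top
  have hab : a = b := by
    by_contra hne
    refine hu0 (hm_nondeg' hF fun w => ?_)
    have h0 : ∀ i, hm u (B i) = 0 := by
      subst hB
      rintro (k | k)
      · exact Ea_orth hF hu (hu' k)
      · have h1 : hm (sv z u) (sv z (sv (x⁻¹ ^ (k : ℕ)) v)) = hm u (sv (x⁻¹ ^ (k : ℕ)) v) := sv_herm z _ _
        have h2 := ha 0
        simp only [Fin.val_zero, pow_zero, sv_one] at h2
        rw [h2, hb k, hm_smulL, hm_smulR, ← mul_assoc] at h1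
        by_contra hne'
        have h3 : a * b ^ 2 = 1 := mul_right_cancel₀ hne' (h1.trans (one_mul _).symm)
        have hb0 : b ≠ 0 := fun h => by subst h; simp at h3
        exact hne (by linear_combination b * h3 - a * F4.cube_eq_one hF hb0)
    refine Submodule.span_induction (fun y hy => ?_) (hm_zeroR hF u) (fun y y' _ _ h h' => ?_)
      (fun r y _ h => ?_) (hspan w)
    · obtain ⟨i, rfl⟩ := hy; exact h0 i
    · rw [hm_addR hF, h, h', add_zero]
    · rw [hm_smulR, h, mul_zero]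
  refine scalar_mem_center ⟨a, ?_⟩
  have hz' : ∀ w, sv z w = a • w := fun w => by
    refine Submodule.span_induction (fun y hy => ?_) (by rw [sv_zero, smul_zero])
      (fun y y' _ _ h h' => ?_) (fun r y _ h => ?_) (hspan w)
    · obtain ⟨i, rfl⟩ := hy
      subst hB
      rcases i with k | k
      · exact ha k
      · rw [hab]; exact hb k
    · rw [sv_add, h, h', smul_add]
    · rw [sv_smul, h, smul_comm]
  refine Matrix.ext_of_mulVec_single fun i => ?_
  rw [Matrix.smul_mulVec, Matrix.one_mulVec]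
  exact hz' _

end CfsgLib.U43
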