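import Cfsg.Agent.ThreeTransp.U43.Mono

/-!
The stabilisers of the three sets, bounded by counting orthonormal frames.
-/

set_option autoImplicit false
set_option linter.unusedSectionVars false

namespace CfsgLib.U43

open Cfsg CfsgLib.Unitary CfsgLib.ThreeTransp CfsgLib.ThreeTransp.PSU62
open scoped Classical

variable {F : Type*} [Field F] [Fintype F] (hF : Fintype.card F = 4)
include hF

/-- unit vectors -/
abbrev ei (i : Fin 6) : Fin 6 → F := Pi.single i 1

omit hF in
theorem supp_ei_add {i j : Fin 6} (h : i ≠ j) {a : F} (ha : a ≠ 0) :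
    supp (Pi.single i (1 : F) + a • Pi.single j 1) = {i, j} := by
  ext k
  simp only [supp, Finset.mem_filter, Finset.mem_univ, true_and, Pi.add_apply, Pi.smul_apply,
    smul_eq_mul, Pi.single_apply, Finset.mem_insert, Finset.mem_singleton]
  by_cases h1 : k = i
  · subst h1; simp [h]
  by_cases h2 : k = j
  · subst h2; simp [h1, ha]
  simp [h1, h2]

omit hF in
theorem hm_ei (i j : Fin 6) : hm (Pi.single i (1 : F)) (Pi.single j 1) = if i = j then 1 else 0 := by
  rw [hm, hermForm, Finset.sum_eq_single i]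
  · by_cases h : i = j
    · subst h; simp
    · simp [h]
  · intro b _ hb; simp [hb]
  · simp

/-- maps carrying every vector of support two into the set -/
def XSet (c : ℕ) : Set ↥(SU 6 F 2) := {g | ∀ v, (supp v).card = 2 → P hF c (sv g v)}

theorem XSet_adj {c : ℕ} {g : ↥(SU 6 F 2)} (hg : g ∈ XSet hF c) {i j : Fin 6} (h : i ≠ j) :
    Adj hF c (sv g (Pi.single i 1)) (sv g (Pi.single j 1)) := by
  refine ⟨?_, ?_, fun a ha => ?_⟩
  · rw [show hm (sv g _) (sv g _) = _ from sv_herm g _ _, show hermForm 6 F 2 _ _ = _ from hm_ei j j,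
      if_pos rfl]
    exact one_ne_zero
  · rw [show hm (sv g _) (sv g _) = _ from sv_herm g _ _, show hermForm 6 F 2 _ _ = _ from hm_ei i j,
      if_neg h]
  · rw [← sv_smul, ← sv_add]
    exact hg _ (by rw [supp_ei_add h ha, Finset.card_pair h])

omit hF in
/-- the three non-zero multiples -/
noncomputable def line (v : Fin 6 → F) : Finset (Fin 6 → F) :=
  (Finset.univ.filter fun a : F => a ≠ 0).image fun a => a • v

theorem card_line {v : Fin 6 → F} (hv : v ≠ 0) : (line v).card = 3 := by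
  rw [line, Finset.card_image_of_injective _ (smul_left_injective F hv), Finset.filter_ne',
    Finset.card_erase_of_mem (Finset.mem_univ _), Finset.card_univ, hF]

theorem line_subset {c : ℕ} {v w : Fin 6 → F} (hw : w ∈ nbrs hF c v) : line w ⊆ nbrs hF c v := by
  simp only [nbrs, Finset.mem_filter, Finset.mem_univ, true_and] at hw
  intro u hu
  simp only [line, Finset.mem_image, Finset.mem_filter, Finset.mem_univ, true_and] at hu
  obtain ⟨a, ha, rfl⟩ := hu
  simp only [nbrs, Finset.mem_filter, Finset.mem_univ, true_and]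
  obtain ⟨h1, h2, h3⟩ := hw
  refine ⟨?_, ?_, fun b hb => by rw [smul_smul]; exact h3 _ (mul_ne_zero hb ha)⟩
  · rw [hm_smulL, hm_smulR]
    exact mul_ne_zero ha (mul_ne_zero (pow_ne_zero _ ha) h1)
  · rw [hm_smulR, h2, mul_zero]

theorem not_mem_line {g : ↥(SU 6 F 2)} {i j : Fin 6} (h : i ≠ j) :
    sv g (Pi.single j 1) ∉ line (sv g (Pi.single i 1)) := by
  intro hm'
  simp only [line, Finset.mem_image, Finset.mem_filter, Finset.mem_univ, true_and] at hm'
  obtain ⟨a, ha, he⟩ := hm'
  rw [← sv_smul] at he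
  have h' := congrArg (sv g⁻¹) he
  rw [sv_inv_sv, sv_inv_sv] at h'
  have := congrFun h' i
  simp [Ne.symm h, h, ha] at this

/-- determined by five images -/
theorem XSet_inj {g g' : ↥(SU 6 F 2)}
    (h : ∀ i : Fin 6, i ≠ 5 → sv g (Pi.single i 1) = sv g' (Pi.single i 1)) : g = g' := by
  obtain ⟨k, hk⟩ : ∃ k, g⁻¹ * g' = k := ⟨_, rfl⟩
  have hfix : ∀ i : Fin 6, i ≠ 5 → sv k (Pi.single i 1) = Pi.single i 1 := fun i hi => by
    rw [← hk, sv_mul, ← h i hi, sv_inv_sv]
  have h5 : ∀ i : Fin 6, i ≠ 5 → sv k (Pi.single 5 1) i = 0 := fun i hi => by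
    have h1 : hm (sv k (Pi.single 5 1)) (sv k (Pi.single i 1)) = 0 :=
      (sv_herm k _ _).trans ((hm_ei 5 i).trans (if_neg (Ne.symm hi)))
    rw [hfix i hi, hm, hermForm, Finset.sum_eq_single i] at h1
    · simpa using h1
    · intro b _ hb; simp [hb]
    · simp
  have hdiag : mat k = Matrix.diagonal (fun i => if i = 5 then sv k (Pi.single 5 1) 5 else 1) := by
    ext i j
    have hij : mat k i j = sv k (Pi.single j 1) i := by simp [sv, mat]
    rw [hij]
    by_cases hj : j = 5
    · subst hj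
      by_cases hi : i = 5
      · subst hi; simp
      · rw [h5 i hi, Matrix.diagonal_apply_ne _ hi]
    · rw [hfix j hj, Pi.single_apply]
      by_cases hi : i = j
      · subst hi; simp [hj]
      · rw [if_neg hi, Matrix.diagonal_apply_ne _ hi]
  have hone : k = 1 := by
    have hd : (mat k).det = 1 := (k : Matrix.SpecialLinearGroup (Fin 6) F).2
    rw [hdiag, Matrix.det_diagonal, Finset.prod_eq_single 5 (fun b _ hb => if_neg hb)
      (fun hb => absurd (Finset.mem_univ _) hb), if_pos rfl] at hd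
    apply mat_inj
    rw [hdiag, mat_one, hd]
    simp
  rw [← hk, inv_mul_eq_one] at hone
  exact hone

theorem card_XSet {c : ℕ} (hc : c < 4) :
    Nat.card (XSet hF c) ≤ (if c = 0 then 174960 else 19595520) := by
  obtain ⟨A, hA⟩ : ∃ A : Finset (Fin 6 → F),
      Finset.univ.filter (fun v => hm v v ≠ 0 ∧ (c = 0 → (supp v).card = 1)) = A := ⟨_, rfl⟩
  obtain ⟨N, hN⟩ : ∃ N, (fun v => nbrs hF c v) = N := ⟨_, rfl⟩
  obtain ⟨T, hT⟩ : ∃ T, A.sigma (fun v0 => (N v0).sigma fun v1 => (N v0 \ line v1).sigma fun v2 =>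
      ((N v0 \ line v1) \ line v2).sigma fun v3 => (((N v0 \ line v1) \ line v2) \ line v3)) = T :=
    ⟨_, rfl⟩
  have hmem : ∀ g ∈ XSet hF c, sv g (Pi.single 0 1) ∈ A ∧
      ∀ j : Fin 6, j ≠ 0 → sv g (Pi.single j 1) ∈ N (sv g (Pi.single 0 1)) := by
    intro g hg
    have hadj : ∀ j : Fin 6, j ≠ 0 →
        sv g (Pi.single j 1) ∈ nbrs hF c (sv g (Pi.single 0 1)) := fun j hj => by
      simp only [nbrs, Finset.mem_filter, Finset.mem_univ, true_and]
      exact XSet_adj hF hg (Ne.symm hj)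
    have hv0 : hm (sv g (Pi.single 0 1)) (sv g (Pi.single 0 1)) ≠ 0 :=
      (XSet_adj hF hg (i := 1) (j := 0) (by decide)).1
    refine ⟨?_, hN ▸ hadj⟩
    rw [← hA, Finset.mem_filter]
    refine ⟨Finset.mem_univ _, hv0, fun h0 => ?_⟩
    by_contra h1
    have hlt := (card_nbrs hF hc hv0).2 h0 h1
    have hsub : (Finset.univ.filter fun j : Fin 6 => j ≠ 0).biUnion
        (fun j => line (sv g (Pi.single j 1))) ⊆ nbrs hF c (sv g (Pi.single 0 1)) := by
      intro u hu
      obtain ⟨j, hj, hu⟩ := Finset.mem_biUnion.1 hu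
      exact line_subset hF (hadj j (Finset.mem_filter.1 hj).2) hu
    have h15 := Finset.card_le_card hsub
    rw [Finset.card_biUnion (fun i _ j _ hij => ?_)] at h15
    · rw [Finset.sum_congr rfl (fun j hj => card_line hF (v := sv g (Pi.single j 1))
        (fun h => (XSet_adj hF hg (Ne.symm (Finset.mem_filter.1 hj).2)).1 (by rw [h, hm_zeroL])))] at h15
      simp [show (Finset.univ.filter fun j : Fin 6 => j ≠ 0).card = 5 by decide] at h15
      omega
    · rw [Function.onFun, Finset.disjoint_left]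
      intro u hu hu'
      simp only [line, Finset.mem_image, Finset.mem_filter, Finset.mem_univ, true_and] at hu hu'
      obtain ⟨a, ha, rfl⟩ := hu
      obtain ⟨b, hb, he⟩ := hu'
      refine not_mem_line hF hij (g := g) ?_
      simp only [line, Finset.mem_image, Finset.mem_filter, Finset.mem_univ, true_and]
      refine ⟨b⁻¹ * a, mul_ne_zero (inv_ne_zero hb) ha, ?_⟩
      rw [← smul_smul, ← he, inv_smul_smul₀ hb]
  have hcardX : Nat.card (XSet hF c) ≤ T.card := by
    rw [← Nat.card_eq_finsetCard]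
    refine Nat.card_le_card_of_injective (fun g => ⟨⟨sv g.1 (Pi.single 0 1), sv g.1 (Pi.single 1 1),
      sv g.1 (Pi.single 2 1), sv g.1 (Pi.single 3 1), sv g.1 (Pi.single 4 1)⟩, ?_⟩) ?_
    · obtain ⟨h0, h⟩ := hmem g.1 g.2
      rw [← hT]
      simp only [Finset.mem_sigma, Finset.mem_sdiff]
      exact ⟨h0, h 1 (by decide), ⟨h 2 (by decide), not_mem_line hF (by decide)⟩,
        ⟨⟨h 3 (by decide), not_mem_line hF (by decide)⟩, not_mem_line hF (by decide)⟩,
        ⟨⟨h 4 (by decide), not_mem_line hF (by decide)⟩, not_mem_line hF (by decide)⟩,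
        not_mem_line hF (by decide)⟩
    · intro g g' h
      simp only [Subtype.mk.injEq, Sigma.mk.injEq, heq_eq_eq] at h
      obtain ⟨a, b, c', d, e⟩ := h
      refine Subtype.ext (XSet_inj hF fun i hi => ?_)
      fin_cases i
      exacts [a, b, c', d, e, absurd rfl hi]
  have hAc : A.card ≤ if c = 0 then 18 else 2016 := by
    have hz : ∀ n, hm (vec hF n) (vec hF n) = 0 ↔ Even (wtN n) := fun n => by
      rw [hm_self_eq_zero_iff hF, supp_vec hF]
    rw [← hA]
    split
    · rename_i h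
      refine le_trans (le_of_eq ?_) (show ((List.range 4096).filter fun n => Nat.beq (wtN n) 1).length ≤ 18
        by decide +kernel)
      convert card_filter_vec hF (fun v => hm v v ≠ 0 ∧ (c = 0 → (supp v).card = 1))
        (fun n => Nat.beq (wtN n) 1) (fun n _ => ?_) using 3
      simp only [Nat.beq_eq, ne_eq, hz, supp_vec hF, h, true_implies]
      exact ⟨fun h => h.2, fun h => ⟨by rw [h]; decide, h⟩⟩
    · rename_i h
      refine le_trans (le_of_eq ?_) (show ((List.range 4096).filter fun n => Nat.beq (wtN n % 2) 1).length ≤ 2016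
        by decide +kernel)
      convert card_filter_vec hF (fun v => hm v v ≠ 0 ∧ (c = 0 → (supp v).card = 1))
        (fun n => Nat.beq (wtN n % 2) 1) (fun n _ => ?_) using 3
      simp only [Nat.beq_eq, ne_eq, hz, h, false_implies, and_true, Nat.not_even_iff]
  have hle : T.card ≤ A.card * (15 * (12 * (9 * 6))) := by
    rw [← hT, ← hN, Finset.card_sigma]
    beta_reduce
    refine le_trans (Finset.sum_le_card_nsmul _ _ _ fun v0 hv0 => ?_) (le_of_eq (smul_eq_mul _ _))
    have h15 := (card_nbrs hF hc (v := v0)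
      (by rw [← hA, Finset.mem_filter] at hv0; exact hv0.2.1)).1
    have hstep : ∀ (S : Finset (Fin 6 → F)) (w : Fin 6 → F), S ⊆ nbrs hF c v0 → w ∈ S →
        line w ⊆ S → (S \ line w).card + 3 ≤ S.card := fun S w hS hw hl => by
      have h0 : w ≠ 0 := fun h => by
        have := (Finset.mem_filter.1 (hS hw)).2.1
        rw [h, hm_zeroL] at this
        exact this rfl
      rw [← card_line hF h0, Finset.card_sdiff_add_card_eq_card hl]
    have hdis : ∀ {w x : Fin 6 → F}, x ∉ line w → ∀ y ∈ line x, y ∉ line w := by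
      intro w x hx y hy hy'
      simp only [line, Finset.mem_image, Finset.mem_filter, Finset.mem_univ, true_and] at hx hy hy'
      obtain ⟨a, ha, rfl⟩ := hy
      obtain ⟨b, hb, he⟩ := hy'
      exact hx ⟨a⁻¹ * b, mul_ne_zero (inv_ne_zero ha) hb, by rw [← smul_smul, he, inv_smul_smul₀ ha]⟩
    rw [Finset.card_sigma]
    beta_reduce
    refine le_trans (Finset.sum_le_card_nsmul _ _ (12 * (9 * 6)) fun v1 hv1 => ?_)
      (by rw [smul_eq_mul]; exact Nat.mul_le_mul_right _ h15)
    have l1 := line_subset hF hv1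
    have s1 := hstep _ v1 (Finset.Subset.refl _) hv1 l1
    rw [Finset.card_sigma]
    beta_reduce
    refine le_trans (Finset.sum_le_card_nsmul _ _ (9 * 6) fun v2 hv2 => ?_)
      (by rw [smul_eq_mul]; exact Nat.mul_le_mul_right _ (by omega))
    obtain ⟨hv2a, hv2b⟩ := Finset.mem_sdiff.1 hv2
    have l2 : line v2 ⊆ nbrs hF c v0 \ line v1 := fun y hy =>
      Finset.mem_sdiff.2 ⟨line_subset hF hv2a hy, hdis hv2b y hy⟩
    have s2 := hstep _ v2 Finset.sdiff_subset hv2 l2
    rw [Finset.card_sigma]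
    beta_reduce
    refine le_trans (Finset.sum_le_card_nsmul _ _ 6 fun v3 hv3 => ?_)
      (by rw [smul_eq_mul]; exact Nat.mul_le_mul_right _ (by omega))
    obtain ⟨hv3', hv3c⟩ := Finset.mem_sdiff.1 hv3
    obtain ⟨hv3a, hv3b⟩ := Finset.mem_sdiff.1 hv3'
    have l3 : line v3 ⊆ (nbrs hF c v0 \ line v1) \ line v2 := fun y hy => Finset.mem_sdiff.2
      ⟨Finset.mem_sdiff.2 ⟨line_subset hF hv3a hy, hdis hv3b y hy⟩, hdis hv3c y hy⟩
    have s3 := hstep _ v3 (Finset.sdiff_subset.trans Finset.sdiff_subset) hv3 l3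
    omega
  refine hcardX.trans (hle.trans ?_)
  refine (Nat.mul_le_mul_right _ hAc).trans ?_
  split <;> norm_num

/-- the stabiliser of the set -/
def stabP (c : ℕ) : Subgroup ↥(SU 6 F 2) where
  carrier := {g | ∀ v, P hF c (sv g v) ↔ P hF c v}
  one_mem' v := by rw [sv_one]
  mul_mem' {g h} hg hh v := by rw [sv_mul, hg, hh]
  inv_mem' {g} hg v := by
    conv_rhs => rw [← sv_sv_inv g v, hg]

theorem stabP_le_XSet (c : ℕ) : (stabP hF c : Set ↥(SU 6 F 2)) ⊆ XSet hF c :=
  fun _ hg v hv => (hg v).2 (Or.inl hv)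

theorem monoSU_mem_stabP (c : ℕ) (σ : Equiv.Perm (Fin 6)) {t : Fin 6 → F} (ht : ∏ i, t i = 1) :
    monoSU hF σ t ht ∈ stabP hF c := fun v => P_mono hF σ ht v

end CfsgLib.U43
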