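import Cfsg.Agent.ThreeTransp.U43.Frame
import Cfsg.Agent.ThreeTransp.U43.Seven

/-!
A subgroup of shape `3·U₄(3)` contains, after conjugation, all diagonal and even monomial maps.
-/

set_option autoImplicit false
set_option linter.unusedSectionVars false

namespace CfsgLib.U43

open Cfsg CfsgLib.Unitary CfsgLib.ThreeTransp CfsgLib.ThreeTransp.PSU62
open scoped Classical commutatorElement

theorem card_normalizer_comap {A B : Type*} [Group A] [Group B] [Finite A] {f : A →* B}
    (hf : Function.Surjective f) (H : Subgroup B) :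
    Nat.card ↥(Subgroup.normalizer ((H.comap f : Subgroup A) : Set A)) =
      Nat.card ↥f.ker * Nat.card ↥(Subgroup.normalizer (H : Set B)) := by
  rw [← Subgroup.comap_normalizer_eq_of_surjective H hf]
  obtain ⟨N, hN⟩ : ∃ N, Subgroup.normalizer (H : Set B) = N := ⟨_, rfl⟩
  rw [hN]
  have hle : f.ker ≤ N.comap f := fun x hx => by
    rw [Subgroup.mem_comap, MonoidHom.mem_ker.1 hx]; exact one_mem _
  have h := Subgroup.card_mul_index (f.comp (N.comap f).subtype).ker
  rw [Subgroup.index_ker, show (f.comp (N.comap f).subtype).ker = f.ker.subgroupOf (N.comap f) from rfl,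
    Nat.card_congr (Subgroup.subgroupOfEquivOfLe hle).toEquiv, MonoidHom.range_comp,
    Subgroup.range_subtype, Subgroup.map_comap_eq_self_of_surjective hf] at h
  exact h.symm

variable {F : Type*} [Field F] [Fintype F] (hF : Fintype.card F = 4)
include hF

theorem center_of_quotient {K : Subgroup ↥(SU 6 F 2)} (hZ : Nat.card ↥(Subgroup.center ↥K) = 3)
    (hcard : Nat.card (↥K ⧸ Subgroup.center ↥K) = 3265920) :
    Subgroup.center ↥(SU 6 F 2) ≤ K ∧
      Subgroup.center ↥K = (Subgroup.center ↥(SU 6 F 2)).subgroupOf K ∧ Nat.card ↥K = 9797760 := by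
  have hK : Nat.card ↥K = 9797760 := by
    rw [← Subgroup.card_mul_index (Subgroup.center ↥K), hZ, Subgroup.index_eq_card, hcard]
  haveI : Fact (Nat.Prime 7) := ⟨by norm_num⟩
  obtain ⟨x, hx⟩ := exists_prime_orderOf_dvd_card' (G := ↥K) 7 (by rw [hK]; norm_num)
  have hx7 : (x : ↥(SU 6 F 2)) ^ 7 = 1 := by
    rw [← Subgroup.coe_pow, ← hx, pow_orderOf_eq_one, Subgroup.coe_one]
  have hx1 : (x : ↥(SU 6 F 2)) ≠ 1 := fun h => by
    rw [show x = 1 from Subtype.ext h, orderOf_one] at hx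
    norm_num at hx
  have hsub : (Subgroup.center ↥K).map K.subtype ≤ Subgroup.center ↥(SU 6 F 2) := by
    rintro _ ⟨z, hz, rfl⟩
    refine scalar_of_seven hF hx7 hx1 ?_ ?_
    · rw [← map_pow, ← hZ]
      have := congrArg Subtype.val (pow_card_eq_one' (x := (⟨z, hz⟩ : ↥(Subgroup.center ↥K))))
      rw [Subgroup.coe_pow, Subgroup.coe_one] at this
      rw [this, map_one]
    · exact (congrArg Subtype.val (Subgroup.mem_center_iff.1 hz x)).symm
  have heq := Subgroup.eq_of_le_of_card_ge hsub (le_of_eq (by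
    rw [card_center hF, Nat.card_congr (Subgroup.equivMapOfInjective _ _ K.subtype_injective).symm.toEquiv, hZ]))
  refine ⟨heq ▸ Subgroup.map_subtype_le _, ?_, hK⟩
  conv_rhs => rw [← heq]
  exact (Subgroup.comap_map_eq_self_of_injective K.subtype_injective _).symm

/-- single coordinate generators -/
theorem pi_closure {w : Fˣ} (hw : w ≠ 1) :
    Subgroup.closure (Set.range fun j : Fin 5 => Pi.mulSingle (M := fun _ => Fˣ) j w) = ⊤ := by
  have hgen : ∀ u : Fˣ, u ∈ Subgroup.zpowers w := by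
    haveI : Fact (Nat.Prime 3) := ⟨by norm_num⟩
    have h : Nat.card Fˣ = 3 := by rw [Nat.card_units, Nat.card_eq_fintype_card, hF]
    intro u
    rw [zpowers_eq_top_of_prime_card h hw]
    exact Subgroup.mem_top u
  refine eq_top_iff.2 fun t _ => ?_
  rw [← Finset.univ_prod_mulSingle t]
  refine Subgroup.prod_mem _ fun j _ => ?_
  obtain ⟨n, hn⟩ := hgen (t j)
  rw [← hn]
  show Pi.mulSingle (M := fun _ => Fˣ) j (w ^ n) ∈ _
  rw [← MonoidHom.mulSingle_apply (f := fun _ : Fin 5 => Fˣ), map_zpow]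
  exact zpow_mem (Subgroup.subset_closure (Set.mem_range_self j)) n

theorem exists_torus {K : Subgroup ↥(SU 6 F 2)} (hZ : Nat.card ↥(Subgroup.center ↥K) = 3)
    (hc : (1 : ℕ) ∈ [1, 2, 3])
    (φ : ↥K ⧸ Subgroup.center ↥K ≃* ↥(K3 hF hc) ⧸ Subgroup.center ↥(K3 hF hc)) :
    ∃ h : ↥(SU 6 F 2), Subgroup.center ↥(SU 6 F 2) ≤ K ∧ Nat.card ↥K = 9797760 ∧
      ∀ (σ : Equiv.Perm (Fin 6)) (t : Fin 6 → F) (ht : ∏ i, t i = 1), Equiv.Perm.sign σ = 1 →
        monoSU hF σ t ht ∈ K.map (MulAut.conj h).toMonoidHom := by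
  have hZ1 := (K3_spec hF hc).1
  have hq : Nat.card (↥K ⧸ Subgroup.center ↥K) = 3265920 := by
    rw [Nat.card_congr φ.toEquiv, ← Subgroup.index_eq_card]
    have h := Subgroup.card_mul_index (Subgroup.center ↥(K3 hF hc))
    rw [hZ1, card_K3 hF hc] at h
    omega
  obtain ⟨hcK, hcen, hK⟩ := center_of_quotient hF hZ hq
  obtain ⟨K₁, hK₁⟩ : ∃ K₁, K3 hF hc = K₁ := ⟨_, rfl⟩
  obtain ⟨β, hβs, hβk⟩ : ∃ β : ↥K →* ↥(K3 hF hc) ⧸ Subgroup.center ↥(K3 hF hc),
      Function.Surjective β ∧ ∀ y, β y = 1 ↔ y ∈ Subgroup.center ↥K :=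
    ⟨φ.toMonoidHom.comp (QuotientGroup.mk' _), φ.surjective.comp (QuotientGroup.mk'_surjective _),
      fun y => (map_eq_one_iff φ φ.injective).trans (QuotientGroup.eq_one_iff y)⟩
  have hkerβ : β.ker = Subgroup.center ↥K := Subgroup.ext fun y => MonoidHom.mem_ker.trans (hβk y)
  have hT1 : (dl hF).range ≤ K3 hF hc := by
    rintro _ ⟨t, rfl⟩
    exact diag_mem_K3 hF hc (tup_prod t)
  obtain ⟨δ, hδ⟩ : ∃ δ : (Fin 5 → Fˣ) →* ↥(K3 hF hc), ∀ t, (δ t : ↥(SU 6 F 2)) = dl hF t :=
    ⟨(dl hF).codRestrict _ fun t => hT1 ⟨t, rfl⟩, fun t => rfl⟩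
  obtain ⟨γ, hγ⟩ : ∃ γ, (QuotientGroup.mk' (Subgroup.center ↥(K3 hF hc))).comp δ = γ := ⟨_, rfl⟩
  obtain ⟨A, hA⟩ : ∃ A : Subgroup ↥K, γ.range.comap β = A := ⟨_, rfl⟩
  obtain ⟨w, hw1⟩ : ∃ w : Fˣ, w ≠ 1 := by
    obtain ⟨w, hw0, hw1, -, -⟩ := F4.exists_omega hF
    exact ⟨Units.mk0 w hw0, fun h => hw1 (congrArg Units.val h)⟩
  obtain ⟨S, hS⟩ : ∃ S : Set ↥K, S = {y | ∃ j : Fin 5, β y = γ (Pi.mulSingle j w)} := ⟨_, rfl⟩
  have hz3 : ∀ z ∈ Subgroup.center ↥K, z ^ 3 = 1 := fun z hz => by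
    have := congrArg Subtype.val (pow_card_eq_one' (x := (⟨z, hz⟩ : ↥(Subgroup.center ↥K))))
    rwa [hZ] at this
  have hswap : ∀ (σ : Equiv.Perm (Fin 6)), Equiv.Perm.sign σ = 1 → ∃ n : ↥K, ∀ t t' : Fin 5 → Fˣ,
      (∀ i, tup t' i = tup t (σ i)) → ∀ y, β y = γ t → β (n * y * n⁻¹) = γ t' := by
    intro σ hσ
    have hm1 := even_mem_K3 hF hc hσ (t := fun _ => (1 : F)) Finset.prod_const_one
    obtain ⟨n, hn⟩ := hβs (QuotientGroup.mk' _ (⟨_, hm1⟩ : ↥(K3 hF hc)))
    refine ⟨n, fun t t' htt y hy => ?_⟩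
    rw [map_mul, map_mul, map_inv, hn, hy, ← hγ, MonoidHom.comp_apply, MonoidHom.comp_apply,
      ← map_inv, ← map_mul, ← map_mul]
    refine congrArg _ (mul_inv_eq_iff_eq_mul.2 (Subtype.ext (sv_ext fun x => funext fun i => ?_)))
    simp only [Subgroup.coe_mul, hδ, sv_mul, sv_monoSU hF, sv_dl, htt, one_mul]
  have htups : ∀ (j : Fin 5) (i : Fin 6), tup (Pi.mulSingle (M := fun _ => Fˣ) j w) i =
      if i = j.castSucc then w else if i = Fin.last 5 then w⁻¹ else 1 := by
    intro j i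
    refine Fin.lastCases ?_ (fun l => ?_) i
    · rw [if_neg (Fin.castSucc_lt_last j).ne', if_pos rfl, tup, Fin.snoc_last]
      rw [Finset.prod_pi_mulSingle' j w Finset.univ, if_pos (Finset.mem_univ _)]
    · rw [if_neg (Fin.castSucc_lt_last l).ne, tup, Fin.snoc_castSucc, Pi.mulSingle_apply]
      simp only [Fin.castSucc_inj]
  have hcom : ∀ y ∈ S, ∀ y' ∈ S, Commute y y' := by
    intro y hy y' hy'
    rw [hS] at hy hy'
    obtain ⟨j, hj⟩ := hy
    obtain ⟨l, hl⟩ := hy'
    by_cases hjl : j = l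
    · subst hjl
      have hm' : y⁻¹ * y' ∈ Subgroup.center ↥K := (hβk _).1 (by rw [map_mul, map_inv, hj, hl, inv_mul_cancel])
      have h := Subgroup.mem_center_iff.1 hm' y
      show y * y' = y' * y
      rw [mul_inv_cancel_left] at h
      calc y * y' = y * (y * (y⁻¹ * y')) := by rw [mul_inv_cancel_left]
        _ = y * ((y⁻¹ * y') * y) := by rw [← Subgroup.mem_center_iff.1 hm' y]
        _ = y' * y := by rw [← mul_assoc, mul_inv_cancel_left]
    obtain ⟨r, hr, s, hs, hrs⟩ := (Finset.one_lt_card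
      (s := ({j.castSucc, l.castSucc, Fin.last 5} : Finset (Fin 6))ᶜ)).1 (by
        rw [Finset.card_compl, Fintype.card_fin]
        have := Finset.card_le_three (a := j.castSucc) (b := l.castSucc) (c := Fin.last 5)
        omega)
    simp only [Finset.mem_compl, Finset.mem_insert, Finset.mem_singleton, not_or] at hr hs
    obtain ⟨σ, hσ⟩ : ∃ σ : Equiv.Perm (Fin 6), σ = Equiv.swap j.castSucc l.castSucc * Equiv.swap r s :=
      ⟨_, rfl⟩
    have hsign : Equiv.Perm.sign σ = 1 := by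
      rw [hσ, map_mul, Equiv.Perm.sign_swap (fun h => hjl (Fin.castSucc_injective _ h)), Equiv.Perm.sign_swap hrs]
      rfl
    obtain ⟨n, hn⟩ := hswap σ hsign
    have hcast : j.castSucc ≠ l.castSucc := fun h => hjl (Fin.castSucc_injective _ h)
    have hl5 : l.castSucc ≠ Fin.last 5 := (Fin.castSucc_lt_last l).ne
    have hj5 : j.castSucc ≠ Fin.last 5 := (Fin.castSucc_lt_last j).ne
    have hperm : ∀ i, (tup (Pi.mulSingle (M := fun _ => Fˣ) l w) i = tup (Pi.mulSingle (M := fun _ => Fˣ) j w) (σ i)) ∧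
        (tup (Pi.mulSingle (M := fun _ => Fˣ) j w) i = tup (Pi.mulSingle (M := fun _ => Fˣ) l w) (σ i)) := by
      intro i
      rw [htups, htups, htups, htups, hσ, Equiv.Perm.mul_apply]
      by_cases h1 : i = r
      · subst h1
        rw [Equiv.swap_apply_left, Equiv.swap_apply_of_ne_of_ne hs.1 hs.2.1]
        simp only [hr, hs, ↓reduceIte, and_self, inv_one]
      by_cases h2 : i = s
      · subst h2
        rw [Equiv.swap_apply_right, Equiv.swap_apply_of_ne_of_ne hr.1 hr.2.1]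
        simp only [hr, hs, ↓reduceIte, and_self, inv_one]
      rw [Equiv.swap_apply_of_ne_of_ne h1 h2]
      by_cases h3 : i = j.castSucc
      · subst h3
        simp only [hcast, hcast.symm, hj5, hl5, Equiv.swap_apply_left, Equiv.swap_apply_right, ↓reduceIte, and_self]
      by_cases h4 : i = l.castSucc
      · subst h4
        simp only [hcast, hcast.symm, hj5, hl5, Equiv.swap_apply_left, Equiv.swap_apply_right, ↓reduceIte, and_self]
      rw [Equiv.swap_apply_of_ne_of_ne h3 h4]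
      simp only [h3, h4, ↓reduceIte, and_self, inv_one]
    have e1 := hn _ _ (fun i => (hperm i).1) y hj
    have e2 := hn _ _ (fun i => (hperm i).2) y' hl
    have hlift : ∀ a b : ↥K, β a = β b → ∃ z ∈ Subgroup.center ↥K, a = b * z := fun a b h =>
      ⟨b⁻¹ * a, (hβk _).1 (by rw [map_mul, map_inv, h, inv_mul_cancel]), by rw [mul_inv_cancel_left]⟩
    obtain ⟨z1, hz1, q1⟩ := hlift _ _ (e1.trans hl.symm)
    obtain ⟨z2, hz2, q2⟩ := hlift _ _ (e2.trans hj.symm)
    obtain ⟨c, hcd⟩ : ∃ c, ⁅y, y'⁆ = c := ⟨_, rfl⟩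
    have hcc : c ∈ Subgroup.center ↥K := by
      rw [← hcd, ← hβk, map_commutatorElement, hj, hl, ← map_commutatorElement,
        commutatorElement_eq_one_iff_commute.2 (Commute.all _ _), map_one]
    have hconj : ⁅y' * z1, y * z2⁆ = c := by
      rw [← q1, ← q2, ← conjugate_commutatorElement, hcd, Subgroup.mem_center_iff.1 hcc n, mul_inv_cancel_right]
    have hswap' : ⁅y' * z1, y * z2⁆ = ⁅y', y⁆ := by
      have a1 := Subgroup.mem_center_iff.1 hz1
      have a2 := Subgroup.mem_center_iff.1 hz2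
      rw [commutatorElement_def, commutatorElement_def, mul_inv_rev, mul_inv_rev]
      calc y' * z1 * (y * z2) * (z1⁻¹ * y'⁻¹) * (z2⁻¹ * y⁻¹)
          = y' * (z1 * (y * z2)) * z1⁻¹ * (y'⁻¹ * z2⁻¹) * y⁻¹ := by group
        _ = y' * ((y * z2) * z1) * z1⁻¹ * (y'⁻¹ * z2⁻¹) * y⁻¹ := by rw [← a1 (y * z2)]
        _ = y' * y * (z2 * y'⁻¹) * z2⁻¹ * y⁻¹ := by group
        _ = y' * y * (y'⁻¹ * z2) * z2⁻¹ * y⁻¹ := by rw [← a2 y'⁻¹]
        _ = y' * y * y'⁻¹ * y⁻¹ := by group
    rw [hswap', ← commutatorElement_inv, hcd] at hconj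
    have h3 := hz3 c hcc
    have hc1 : c = 1 := by
      calc c = c⁻¹ * c * c := by group
        _ = c ^ 3 := by rw [hconj, pow_succ, pow_two]
        _ = 1 := h3
    exact commutatorElement_eq_one_iff_commute.1 (hcd.trans hc1)
  have hcube : ∀ y ∈ S, y ^ 3 = 1 := by
    intro y hy
    rw [hS] at hy
    obtain ⟨j, hj⟩ := hy
    obtain ⟨r, hr, s, hs, hrs⟩ := (Finset.one_lt_card
      (s := ({j.castSucc, Fin.last 5} : Finset (Fin 6))ᶜ)).1 (by
        rw [Finset.card_compl, Fintype.card_fin]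
        have := Finset.card_le_two (a := j.castSucc) (b := Fin.last 5)
        omega)
    simp only [Finset.mem_compl, Finset.mem_insert, Finset.mem_singleton, not_or] at hr hs
    have hj5 : j.castSucc ≠ Fin.last 5 := (Fin.castSucc_lt_last j).ne
    obtain ⟨n, hn⟩ := hswap (Equiv.swap j.castSucc (Fin.last 5) * Equiv.swap r s) (by
      rw [map_mul, Equiv.Perm.sign_swap hj5, Equiv.Perm.sign_swap hrs]; rfl)
    have e1 := hn (Pi.mulSingle j w) (Pi.mulSingle j w)⁻¹ (fun i => by
      have hinv : ∀ t : Fin 5 → Fˣ, tup t⁻¹ i = (tup t i)⁻¹ := fun t => eq_inv_of_mul_eq_one_left (by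
        rw [← Pi.mul_apply, ← tup_mul, inv_mul_cancel]
        refine Fin.lastCases ?_ (fun l => ?_) i <;> simp only [tup, Fin.snoc_last, Fin.snoc_castSucc, Pi.one_apply, Finset.prod_const_one, inv_one])
      rw [hinv, htups, htups, Equiv.Perm.mul_apply]
      by_cases h1 : i = r
      · subst h1
        rw [Equiv.swap_apply_left, Equiv.swap_apply_of_ne_of_ne hs.1 hs.2]
        simp only [hr, hs, ↓reduceIte, and_self, inv_one]
      by_cases h2 : i = s
      · subst h2
        rw [Equiv.swap_apply_right, Equiv.swap_apply_of_ne_of_ne hr.1 hr.2]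
        simp only [hr, hs, ↓reduceIte, and_self, inv_one]
      rw [Equiv.swap_apply_of_ne_of_ne h1 h2]
      by_cases h3 : i = j.castSucc
      · subst h3
        simp only [hj5, hj5.symm, Equiv.swap_apply_left, Equiv.swap_apply_right, ↓reduceIte, inv_inv]
      by_cases h4 : i = Fin.last 5
      · subst h4
        simp only [hj5, hj5.symm, Equiv.swap_apply_left, Equiv.swap_apply_right, ↓reduceIte, inv_inv]
      rw [Equiv.swap_apply_of_ne_of_ne h3 h4]
      simp only [h3, h4, ↓reduceIte, and_self, inv_one]) y hj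
    obtain ⟨z, hz, q⟩ : ∃ z ∈ Subgroup.center ↥K, n * y * n⁻¹ = y⁻¹ * z :=
      ⟨y * (n * y * n⁻¹), (hβk _).1 (by rw [map_mul β y, e1, hj, ← map_mul, mul_inv_cancel, map_one]),
        by rw [inv_mul_cancel_left]⟩
    have hy3 : y ^ 3 ∈ Subgroup.center ↥K := by
      rw [← hβk, map_pow, hj, ← map_pow, show (Pi.mulSingle (M := fun _ => Fˣ) j w) ^ 3 = 1 from
        funext fun i => Units.ext (by rw [Pi.pow_apply, Units.val_pow_eq_pow_val]; exact F4.cube_eq_one hF (Units.ne_zero _)),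
        map_one]
    have h1 : n * y ^ 3 * n⁻¹ = y ^ 3 := by rw [Subgroup.mem_center_iff.1 hy3 n, mul_inv_cancel_right]
    rw [← conj_pow, q, Commute.mul_pow (show Commute y⁻¹ z from Subgroup.mem_center_iff.1 hz y⁻¹), hz3 z hz, mul_one, inv_pow] at h1
    have h6 := hz3 _ hy3
    calc y ^ 3 = (y ^ 3) ^ 3 * ((y ^ 3)⁻¹ * (y ^ 3)⁻¹) := by group
      _ = (y ^ 3)⁻¹ * (y ^ 3) := by rw [h6, one_mul]; nth_rewrite 2 [h1]; rfl
      _ = 1 := inv_mul_cancel _
  have hAcl : A ≤ Subgroup.closure S := by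
    intro x hx
    rw [← hA, Subgroup.mem_comap] at hx
    have hmap : γ.range ≤ (Subgroup.closure S).map β := by
      rw [MonoidHom.range_eq_map, ← pi_closure hF hw1, MonoidHom.map_closure, Subgroup.closure_le]
      rintro _ ⟨_, ⟨j, rfl⟩, rfl⟩
      obtain ⟨y, hy⟩ := hβs (γ (Pi.mulSingle j w))
      exact ⟨y, Subgroup.subset_closure (hS ▸ ⟨j, hy⟩), hy⟩
    obtain ⟨s, hs, hsx⟩ := hmap hx
    have hz : s⁻¹ * x ∈ Subgroup.center ↥K := (hβk _).1 (by rw [map_mul, map_inv, hsx, inv_mul_cancel])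
    obtain ⟨y, hy⟩ := hβs (γ (Pi.mulSingle 0 w))
    have hyS : y ∈ S := hS ▸ ⟨0, hy⟩
    have hyzS : y * (s⁻¹ * x) ∈ S := hS ▸ ⟨0, by rw [map_mul, hy, (hβk _).2 hz, mul_one]⟩
    have : s⁻¹ * x ∈ Subgroup.closure S := by
      have := mul_mem (inv_mem (Subgroup.subset_closure hyS)) (Subgroup.subset_closure hyzS)
      rwa [inv_mul_cancel_left] at this
    have := mul_mem hs this
    rwa [mul_inv_cancel_left] at this
  haveI := Subgroup.isMulCommutative_closure (k := S) fun a ha b hb => hcom a ha b hb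
  have hAcom : ∀ a ∈ A, ∀ b ∈ A, Commute a b := fun a ha b hb =>
    congrArg Subtype.val (IsMulCommutative.is_comm.comm (⟨a, hAcl ha⟩ : ↥(Subgroup.closure S)) ⟨b, hAcl hb⟩)
  have hA3 : ∀ a ∈ A, a ^ 3 = 1 := by
    intro a ha
    have hcl : ∀ x ∈ Subgroup.closure S, x ^ 3 = 1 := by
      intro x hx
      induction hx using Subgroup.closure_induction with
      | mem y hy => exact hcube y hy
      | one => exact one_pow 3
      | mul p q hp hq hp3 hq3 =>
        rw [(show Commute p q from congrArg Subtype.val (IsMulCommutative.is_comm.comm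
          (⟨p, hp⟩ : ↥(Subgroup.closure S)) ⟨q, hq⟩)).mul_pow, hp3, hq3, one_mul]
      | inv p _ hp3 => rw [inv_pow, hp3, inv_one]
    exact hcl a (hAcl ha)
  -- orders
  have hker1 : Nat.card ↥γ.ker = 3 := by
    obtain ⟨diag, hdiag⟩ : ∃ f : Fˣ → ↥γ.ker, ∀ a, ((f a : Fin 5 → Fˣ)) = fun _ => a := by
      refine ⟨fun a => ⟨fun _ => a, ?_⟩, fun a => rfl⟩
      rw [MonoidHom.mem_ker, ← hγ, MonoidHom.comp_apply, QuotientGroup.mk'_apply,
        QuotientGroup.eq_one_iff, center_K3, Subgroup.mem_subgroupOf, hδ]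
      refine scalar_mem_center ⟨a, ?_⟩
      refine Matrix.ext_of_mulVec_single fun l => funext fun i => ?_
      show sv (dl hF fun _ => a) _ i = _
      rw [sv_dl, Matrix.smul_mulVec, Matrix.one_mulVec, Pi.smul_apply, smul_eq_mul]
      congr 1
      refine Fin.lastCases ?_ (fun m => ?_) i
      · simp only [tup, Fin.snoc_last, Finset.prod_const, Finset.card_univ, Fintype.card_fin]
        rw [Units.val_inv_eq_inv_val, Units.val_pow_eq_pow_val]
        refine (eq_inv_of_mul_eq_one_left ?_).symm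
        rw [show (a : F) * (a : F) ^ 5 = ((a : F) ^ 3) ^ 2 by ring, F4.cube_eq_one hF a.ne_zero, one_pow]
      · simp [tup]
    have hbij : Function.Bijective diag := by
      refine ⟨fun a b h => ?_, fun t => ?_⟩
      · have := congrArg (fun q : ↥γ.ker => (q : Fin 5 → Fˣ) 0) h
        simpa [hdiag] using this
      · obtain ⟨t, ht⟩ := t
        refine ⟨t 0, Subtype.ext ?_⟩
        rw [hdiag]
        rw [MonoidHom.mem_ker, ← hγ, MonoidHom.comp_apply, QuotientGroup.mk'_apply,
          QuotientGroup.eq_one_iff, center_K3, Subgroup.mem_subgroupOf, hδ] at ht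
        obtain ⟨c, -, hc'⟩ := center_sv hF ht
        have hall : ∀ i, ((tup t i : Fˣ) : F) = c := fun i => by
          have := congrFun (hc' fun _ => 1) i
          rw [sv_dl, Pi.smul_apply, smul_eq_mul, mul_one, mul_one] at this
          exact this
        funext l
        have h1 := hall (Fin.castSucc 0)
        have h2 := hall l.castSucc
        simp only [tup, Fin.snoc_castSucc] at h1 h2
        exact Units.ext (h1.trans h2.symm)
    rw [← Nat.card_congr (Equiv.ofBijective diag hbij), Nat.card_units, Nat.card_eq_fintype_card, hF]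
  have hcardA : Nat.card ↥A = 243 := by
    have hle : β.ker ≤ A := fun x hx => by
      rw [← hA, Subgroup.mem_comap, MonoidHom.mem_ker.1 hx]; exact one_mem _
    have h := Subgroup.card_mul_index (β.comp A.subtype).ker
    rw [Subgroup.index_ker, show (β.comp A.subtype).ker = β.ker.subgroupOf A from rfl,
      Nat.card_congr (Subgroup.subgroupOfEquivOfLe hle).toEquiv, MonoidHom.range_comp,
      Subgroup.range_subtype, hkerβ, hZ, ← hA, Subgroup.map_comap_eq_self_of_surjective hβs] at h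
    have h2 := Subgroup.card_mul_index γ.ker
    rw [Subgroup.index_ker, hker1, Nat.card_fun, Nat.card_units, Nat.card_eq_fintype_card (α := F),
      Nat.card_eq_fintype_card (α := Fin 5), hF, Fintype.card_fin] at h2
    rw [hA] at h
    omega
  obtain ⟨h, hh⟩ := exists_frame hF (A := A.map K.subtype)
    (by rw [Nat.card_congr (Subgroup.equivMapOfInjective _ _ K.subtype_injective).symm.toEquiv, hcardA])
    (by rintro _ ⟨a, ha, rfl⟩ _ ⟨b, hb, rfl⟩; exact (hAcom a ha b hb).map K.subtype)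
    (by rintro _ ⟨a, ha, rfl⟩; rw [← map_pow, hA3 a ha, map_one])
  refine ⟨h, hcK, hK, ?_⟩
  obtain ⟨K', hK'⟩ : ∃ K', K.map (MulAut.conj h).toMonoidHom = K' := ⟨_, rfl⟩
  rw [hK']
  have hT : (dl hF).range ≤ K' := by
    rw [← hh, ← hK']
    exact Subgroup.map_mono (Subgroup.map_subtype_le A)
  obtain ⟨P, hP, hPc⟩ := card_monomial hF hT
  obtain ⟨P₁, hP₁, hP₁c⟩ := card_monomial hF hT1
  -- the two normalisers have the same order
  have hsub : ∀ {H J : Subgroup ↥(SU 6 F 2)} {X : Subgroup ↥H}, X.map H.subtype = J →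
      Nat.card ↥(H ⊓ Subgroup.normalizer (J : Set ↥(SU 6 F 2)) : Subgroup _) =
        Nat.card ↥(Subgroup.normalizer (X : Set ↥H)) := by
    intro H J X hX
    have : (Subgroup.normalizer (J : Set ↥(SU 6 F 2))).subgroupOf H = Subgroup.normalizer (X : Set ↥H) := by
      ext g
      rw [Subgroup.mem_subgroupOf, Subgroup.mem_normalizer_iff'', Subgroup.mem_normalizer_iff'', ← hX]
      have e : ∀ x : ↥H, (x : ↥(SU 6 F 2)) ∈ X.map H.subtype ↔ x ∈ X := fun x =>
        Subgroup.mem_map_iff_mem H.subtype_injective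
      constructor
      · intro hg x
        have := hg x
        rw [show (g : ↥(SU 6 F 2))⁻¹ * x * g = ((g⁻¹ * x * g : ↥H) : ↥(SU 6 F 2)) by push_cast; rfl] at this
        exact (e _).symm.trans (this.trans (e _))
      · intro hg y
        constructor
        · rintro ⟨x, hx, rfl⟩
          exact ⟨_, (hg x).1 hx, by simp⟩
        · rintro ⟨x, hx, hxy⟩
          refine ⟨g * x * g⁻¹, (hg _).2 (by simpa [mul_assoc] using hx), ?_⟩
          simp [show ((x : ↥H) : ↥(SU 6 F 2)) = (g : ↥(SU 6 F 2))⁻¹ * y * g from hxy, mul_assoc]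
    rw [← this, inf_comm, ← Subgroup.inf_subgroupOf_right]
    exact (Nat.card_congr (Subgroup.subgroupOfEquivOfLe inf_le_right).toEquiv).symm
  have hn1 : Nat.card ↥(K3 hF hc ⊓ Subgroup.normalizer (((dl hF).range : Subgroup _) : Set _) : Subgroup _) =
      3 * Nat.card ↥(Subgroup.normalizer (SetLike.coe γ.range)) := by
    rw [hsub (X := γ.range.comap (QuotientGroup.mk' _)) ?_, card_normalizer_comap
      (QuotientGroup.mk'_surjective _), QuotientGroup.ker_mk', hZ1]
    rw [← hγ, MonoidHom.range_comp, Subgroup.comap_map_eq, QuotientGroup.ker_mk', Subgroup.map_sup]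
    have e1 : δ.range.map (K3 hF hc).subtype = (dl hF).range := by
      rw [MonoidHom.map_range]
      exact congrArg MonoidHom.range (MonoidHom.ext hδ)
    rw [e1, sup_eq_left, center_K3, Subgroup.subgroupOf_map_subtype]
    intro z hz
    obtain ⟨c, -, hzc⟩ := center_sv hF hz.1
    exact (dl_range_iff hF).2 ⟨fun _ => c, fun x i => by rw [hzc]; rfl⟩
  have hn : Nat.card ↥(K' ⊓ Subgroup.normalizer (((dl hF).range : Subgroup _) : Set _) : Subgroup _) =
      3 * Nat.card ↥(Subgroup.normalizer (SetLike.coe γ.range)) := by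
    have hconj : Nat.card ↥(K' ⊓ Subgroup.normalizer (((dl hF).range : Subgroup _) : Set _) : Subgroup _) =
        Nat.card ↥(K ⊓ Subgroup.normalizer ((A.map K.subtype : Subgroup _) : Set _) : Subgroup _) := by
      rw [← hK', ← hh, ← Subgroup.map_equiv_normalizer_eq, ← Subgroup.map_inf _ _ _ (MulAut.conj h).injective]
      exact Nat.card_congr (Subgroup.equivMapOfInjective _ _ (MulAut.conj h).injective).symm.toEquiv
    rw [hconj, hsub (X := A) rfl, ← hA, card_normalizer_comap hβs, hkerβ, hZ]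
  have hPP : Nat.card ↥P = Nat.card ↥P₁ := by omega
  have halt : ∀ σ, σ ∈ alternatingGroup (Fin 6) → σ ∈ P₁ := fun σ hσ => (hP₁ σ).2
    ⟨_, even_mem_K3 hF hc (σ := σ⁻¹) (t := fun _ => (1 : F)) (by
      rw [map_inv, Equiv.Perm.mem_alternatingGroup.1 hσ, inv_one]) Finset.prod_const_one,
      isMono_monoSU hF _ _⟩
  have hswap01 : Equiv.swap (0 : Fin 6) 1 ∉ P₁ := fun hs => by
    obtain ⟨g, hg, hm'⟩ := (hP₁ _).1 hs
    rw [Equiv.swap_inv] at hm'
    exact swap_not_mem_K3 hF hc hm' hg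
  have hP1alt : P₁ = alternatingGroup (Fin 6) := by
    refine le_antisymm (fun σ hσ => ?_) halt
    rw [Equiv.Perm.mem_alternatingGroup]
    rcases Int.units_eq_one_or (Equiv.Perm.sign σ) with hs | hs
    · exact hs
    exfalso
    refine hswap01 ?_
    have h1 : σ⁻¹ * Equiv.swap 0 1 ∈ P₁ := halt _ (by
      rw [Equiv.Perm.mem_alternatingGroup, map_mul, map_inv, hs, Equiv.Perm.sign_swap (by decide)]; rfl)
    have := mul_mem hσ h1
    rwa [mul_inv_cancel_left] at this
  have hPalt : P = alternatingGroup (Fin 6) := by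
    refine Equiv.Perm.eq_alternatingGroup_of_index_eq_two ?_
    have h2 : Nat.card ↥P = Nat.card ↥(alternatingGroup (Fin 6)) := by rw [hPP, hP1alt]
    have h3 := Subgroup.card_mul_index P
    have h4 := Subgroup.card_mul_index (alternatingGroup (Fin 6))
    rw [h2, alternatingGroup.index_eq_two] at *
    exact Nat.eq_of_mul_eq_mul_left Nat.card_pos (h3.trans h4.symm)
  intro σ t ht hσ
  obtain ⟨g, hg, hgm⟩ := (hP σ⁻¹).1 (hPalt.symm ▸ Equiv.Perm.mem_alternatingGroup.2 (by rw [map_inv, hσ, inv_one]))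
  rw [inv_inv] at hgm
  obtain ⟨s, hs, rfl⟩ := hgm.exists_eq hF
  have hp : ∏ i, t i / s i = 1 := by rw [Finset.prod_div_distrib, ht, hs, div_one]
  have e : monoSU hF σ t ht = monoSU hF 1 (fun i => t i / s i) hp * monoSU hF σ s hs :=
    sv_ext fun x => funext fun i => by
      have hsne : s i ≠ 0 := fun h0 => one_ne_zero (hs.symm.trans (Finset.prod_eq_zero (Finset.mem_univ i) h0))
      simp only [sv_mul, sv_monoSU hF, Equiv.Perm.one_apply]
      field_simp
  rw [e]
  exact mul_mem (hT (monoSU_one_mem_dl hF hp)) hg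

end CfsgLib.U43
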