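import Mathlib
import Cfsg.Agent.ThreeTransp.PSU62Geom
import Cfsg.Agent.ThreeTransp.U43.Code

/-!
The coded vectors over an arbitrary field with four elements, and the three sets of isotropic
vectors defined by support and product of coordinates.
-/

set_option autoImplicit false
set_option linter.unusedSectionVars false

namespace CfsgLib.U43

open Cfsg CfsgLib.Unitary CfsgLib.ThreeTransp CfsgLib.ThreeTransp.PSU62
open scoped Classical

variable {F : Type*} [Field F] [Fintype F] (hF : Fintype.card F = 4)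

/-- a fixed primitive element -/
noncomputable def om : F := (F4.exists_omega hF).choose

include hF

theorem om_spec : (om hF : F) ≠ 0 ∧ (om hF : F) ≠ 1 ∧ (om hF : F) ^ 3 = 1 ∧
    (om hF : F) + om hF ^ 2 = 1 := (F4.exists_omega hF).choose_spec

omit hF in
/-- the field element with a given code -/
noncomputable def el (hF : Fintype.card F = 4) : ℕ → F
  | 0 => 0
  | 1 => 1
  | 2 => om hF
  | _ => om hF + 1

theorem el_facts : ∀ a < 4, ∀ b < 4, el hF (a ^^^ b) = el hF a + el hF b ∧
    el hF (mulT a b) = el hF a * el hF b ∧ (el hF a = el hF b → a = b) := by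
  obtain ⟨h0, h1, h3, hs⟩ := om_spec hF
  have h2 : (2 : F) = 0 := two_zero hF
  intro a ha b hb
  interval_cases a <;> interval_cases b <;>
    simp only [el, mulT, Nat.reduceXor, Nat.reduceAdd, Nat.reduceSub, Nat.reduceMod, Nat.reduceBEq,
      Bool.or_self, Bool.or_false, Bool.false_or, Bool.or_true, Bool.true_or, if_true,
      Bool.false_eq_true, if_false] <;>
    refine ⟨by grind, by grind, by grind⟩

theorem el_add {a b : ℕ} (ha : a < 4) (hb : b < 4) : el hF (a ^^^ b) = el hF a + el hF b :=
  (el_facts hF a ha b hb).1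

theorem el_mul {a b : ℕ} (ha : a < 4) (hb : b < 4) : el hF (mulT a b) = el hF a * el hF b :=
  (el_facts hF a ha b hb).2.1

theorem el_inj {a b : ℕ} (ha : a < 4) (hb : b < 4) (h : el hF a = el hF b) : a = b :=
  (el_facts hF a ha b hb).2.2 h

theorem el_surj (x : F) : ∃ a < 4, el hF a = x := by
  have hi : Function.Injective (fun a : Fin 4 => el hF a.1) := fun a b h =>
    Fin.ext (el_inj hF a.2 b.2 h)
  obtain ⟨a, ha⟩ := ((Fintype.bijective_iff_injective_and_card _).2
    ⟨hi, by rw [Fintype.card_fin, hF]⟩).2 x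
  exact ⟨a, a.2, ha⟩

theorem el_eq_zero {a : ℕ} (ha : a < 4) : el hF a = 0 ↔ a = 0 :=
  ⟨fun h => el_inj hF ha (by norm_num) h, fun h => by subst h; rfl⟩

omit hF in
theorem digN_lt (n i : ℕ) : digN n i < 4 := by
  have h : ∀ x : ℕ, x &&& 1 ≤ 1 := fun x => Nat.and_le_right
  have h1 := h (n >>> i)
  have h2 := h (n >>> (i + 6))
  unfold digN
  omega

omit hF in
theorem digN_eq (n i : ℕ) :
    digN n i = (n.testBit i).toNat + 2 * (n.testBit (i + 6)).toNat := by
  simp [digN, Nat.toNat_testBit, Nat.shiftRight_eq_div_pow]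

omit hF in
theorem digN_xor (m n i : ℕ) : digN (m ^^^ n) i = digN m i ^^^ digN n i := by
  simp only [digN_eq, Nat.testBit_xor]
  cases m.testBit i <;> cases m.testBit (i + 6) <;> cases n.testBit i <;>
    cases n.testBit (i + 6) <;> rfl

omit hF in
theorem testBit_sixtythree (i : Fin 6) : (63 : ℕ).testBit i = true ∧
    (63 : ℕ).testBit (i + 6) = false := by revert i; decide

omit hF in
theorem testBit_lo (n : ℕ) (i : Fin 6) : (lo n).testBit i = n.testBit i ∧
    (lo n).testBit (i + 6) = false ∧ (hi n).testBit i = n.testBit (i + 6) ∧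
    (hi n).testBit (i + 6) = false := by
  simp [lo, hi, Nat.testBit_and, Nat.testBit_shiftRight, testBit_sixtythree i, Nat.add_comm]

omit hF in
theorem digN_omN (n : ℕ) (i : Fin 6) : digN (omN n) i = mulT 2 (digN n i) := by
  obtain ⟨a, b, c, d⟩ := testBit_lo n i
  have hlt : decide (6 ≤ (i : ℕ)) = false := by simp [i.2]
  simp only [digN_eq, omN, Nat.testBit_or, Nat.testBit_shiftLeft, Nat.testBit_xor, a, c, d,
    hlt, Bool.false_and, Bool.or_false, Nat.add_sub_cancel, Nat.le_add_left, decide_true,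
    Bool.true_and, Bool.false_or]
  cases n.testBit i <;> cases n.testBit ((i : ℕ) + 6) <;> rfl

omit hF in
theorem digN_smulN (n : ℕ) (i : Fin 6) : ∀ a < 4, digN (smulN a n) i = mulT a (digN n i) := by
  intro a ha
  have hd := digN_lt n i
  interval_cases a <;> simp only [smulN, digN_omN]
  · simp [digN, mulT]
  · revert hd; generalize digN n i = d; intro hd; interval_cases d <;> rfl
  · revert hd; generalize digN n i = d; intro hd; interval_cases d <;> rfl

omit hF in
/-- the coded vector -/
noncomputable def vec (hF : Fintype.card F = 4) (n : ℕ) : Fin 6 → F := fun i => el hF (digN n i)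

theorem vec_xor (m n : ℕ) : vec hF (m ^^^ n) = vec hF m + vec hF n :=
  funext fun i => by
    show el hF _ = el hF _ + el hF _
    rw [digN_xor, el_add hF (digN_lt _ _) (digN_lt _ _)]

theorem vec_smul {a : ℕ} (ha : a < 4) (n : ℕ) : vec hF (smulN a n) = el hF a • vec hF n :=
  funext fun i => by
    show el hF _ = el hF _ * el hF _
    rw [digN_smulN n i a ha, el_mul hF ha (digN_lt _ _)]

theorem vec_inj {m n : ℕ} (hm : m < 4096) (hn : n < 4096) (h : vec hF m = vec hF n) : m = n := by
  have hd : ∀ i : Fin 6, digN m i = digN n i := fun i =>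
    el_inj hF (digN_lt _ _) (digN_lt _ _) (congrFun h i)
  have hb : ∀ i : Fin 6, m.testBit i = n.testBit i ∧ m.testBit (i + 6) = n.testBit (i + 6) := by
    intro i
    have := hd i
    simp only [digN_eq] at this
    revert this
    cases m.testBit i <;> cases m.testBit ((i : ℕ) + 6) <;> cases n.testBit i <;>
      cases n.testBit ((i : ℕ) + 6) <;> simp
  refine Nat.eq_of_testBit_eq fun j => ?_
  rcases lt_or_ge j 6 with hj | hj
  · exact (hb ⟨j, hj⟩).1
  rcases lt_or_ge j 12 with hj' | hj'
  · have := (hb ⟨j - 6, by omega⟩).2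
    simp only [Nat.sub_add_cancel hj] at this
    exact this
  · rw [Nat.testBit_lt_two_pow (lt_of_lt_of_le hm (by simpa using Nat.pow_le_pow_right two_pos hj')),
      Nat.testBit_lt_two_pow (lt_of_lt_of_le hn (by simpa using Nat.pow_le_pow_right two_pos hj'))]

theorem vec_surj (v : Fin 6 → F) : ∃ n < 4096, vec hF n = v := by
  have hi : Function.Injective (fun n : Fin 4096 => vec hF n.1) := fun a b h =>
    Fin.ext (vec_inj hF a.2 b.2 h)
  obtain ⟨a, ha⟩ := ((Fintype.bijective_iff_injective_and_card _).2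
    ⟨hi, by rw [Fintype.card_fin, Fintype.card_fun, Fintype.card_fin, hF]; norm_num⟩).2 v
  exact ⟨a, a.2, ha⟩

theorem par_eq : ∀ x < 64, par x = ((List.range 6).map fun i => (x.testBit i).toNat).foldr (· ^^^ ·) 0 := by
  decide

theorem hm_vec (m n : ℕ) : hm (vec hF m) (vec hF n) = el hF (hN m n) := by
  have hterm : ∀ i : Fin 6, vec hF m i * vec hF n i ^ 2 =
      el hF (((m.testBit i && n.testBit i) ^^ (m.testBit i && n.testBit (i + 6))
        ^^ (m.testBit (i + 6) && n.testBit (i + 6))).toNat
        + 2 * ((m.testBit i && n.testBit (i + 6)) ^^ (m.testBit (i + 6) && n.testBit i)).toNat) := by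
    intro i
    show el hF _ * el hF _ ^ 2 = _
    rw [pow_two, ← el_mul hF (digN_lt _ _) (digN_lt _ _), ← el_mul hF (digN_lt _ _)]
    · congr 1
      simp only [digN_eq]
      cases m.testBit i <;> cases m.testBit ((i : ℕ) + 6) <;> cases n.testBit i <;>
        cases n.testBit ((i : ℕ) + 6) <;> rfl
    · have := digN_lt n i
      generalize digN n i = d at this
      interval_cases d <;> decide
  obtain ⟨A, hA⟩ : ∃ A, (lo m &&& lo n) ^^^ (lo m &&& hi n) ^^^ (hi m &&& hi n) = A := ⟨_, rfl⟩
  obtain ⟨B, hB⟩ : ∃ B, (lo m &&& hi n) ^^^ (hi m &&& lo n) = B := ⟨_, rfl⟩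
  have hlo : ∀ k, lo k < 2 ^ 6 := fun k => lt_of_le_of_lt Nat.and_le_right (by norm_num)
  have hhi : ∀ k, hi k < 2 ^ 6 := fun k => lt_of_le_of_lt Nat.and_le_right (by norm_num)
  have hAl : A < 64 := hA ▸ Nat.xor_lt_two_pow (Nat.xor_lt_two_pow
    (Nat.and_lt_two_pow _ (hlo n)) (Nat.and_lt_two_pow _ (hhi n))) (Nat.and_lt_two_pow _ (hhi n))
  have hBl : B < 64 := hB ▸ Nat.xor_lt_two_pow
    (Nat.and_lt_two_pow _ (hhi n)) (Nat.and_lt_two_pow _ (hlo n))
  have hsum : hm (vec hF m) (vec hF n) =
      ∑ i : Fin 6, el hF ((A.testBit i).toNat + 2 * (B.testBit i).toNat) := by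
    refine Finset.sum_congr rfl fun i _ => ?_
    rw [hterm i, ← hA, ← hB]
    simp only [Nat.testBit_xor, Nat.testBit_and, (testBit_lo m i).1, (testBit_lo m i).2.2.1,
      (testBit_lo n i).1, (testBit_lo n i).2.2.1]
  rw [hsum]
  unfold hN
  rw [hA, hB, par_eq hF A hAl, par_eq hF B hBl]
  have hsix : List.range 6 = [0, 1, 2, 3, 4, 5] := rfl
  simp only [hsix, List.map_cons, List.map_nil, List.foldr_cons, List.foldr_nil, Fin.sum_univ_six]
  have hadd : ∀ a b c d : Bool, el hF (a.toNat + 2 * b.toNat) + el hF (c.toNat + 2 * d.toNat) =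
      el hF ((a ^^ c).toNat + 2 * (b ^^ d).toNat) := by
    intro a b c d
    rw [← el_add hF (by cases a <;> cases b <;> decide) (by cases c <;> cases d <;> decide)]
    cases a <;> cases b <;> cases c <;> cases d <;> rfl
  have htn : ∀ a b : Bool, a.toNat ^^^ b.toNat = (a ^^ b).toNat := by decide
  simp only [hadd, Nat.xor_zero, htn, Bool.xor_assoc]
  rfl

/-- the number of non-zero coordinates -/
noncomputable def supp (v : Fin 6 → F) : Finset (Fin 6) := Finset.univ.filter fun i => v i ≠ 0

theorem supp_vec (n : ℕ) : (supp (vec hF n)).card = wtN n := by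
  have h : supp (vec hF n) = ((List.finRange 6).filter fun i : Fin 6 => !Nat.beq (digN n i) 0).toFinset := by
    ext i
    have hz := el_eq_zero hF (digN_lt n i)
    simp only [supp, Finset.mem_filter, Finset.mem_univ, true_and, List.mem_toFinset,
      List.mem_filter, List.mem_finRange, Bool.not_eq_true', ← Bool.not_eq_true, Nat.beq_eq]
    exact not_congr hz
  rw [h, List.toFinset_card_of_nodup ((List.nodup_finRange 6).filter _), wtN,
    show List.range 6 = (List.finRange 6).map Fin.val from rfl, List.filter_map, List.length_map]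
  rfl

omit hF in
theorem mulT_lt : ∀ a < 4, ∀ b < 4, mulT a b < 4 := by decide

theorem el_foldr : ∀ L : List ℕ, (∀ x ∈ L, x < 4) →
    L.foldr mulT 1 < 4 ∧ el hF (L.foldr mulT 1) = (L.map (el hF)).prod := by
  intro L
  induction L with
  | nil => exact fun _ => ⟨by decide, rfl⟩
  | cons a t ih =>
    intro h
    obtain ⟨h1, h2⟩ := ih fun x hx => h x (List.mem_cons_of_mem _ hx)
    have ha := h a List.mem_cons_self
    exact ⟨mulT_lt a ha _ h1, by rw [List.foldr_cons, el_mul hF ha h1, h2, List.map_cons, List.prod_cons]⟩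

theorem prod_vec (n : ℕ) : prodN n < 4 ∧ ∏ i, vec hF n i = el hF (prodN n) := by
  obtain ⟨h1, h2⟩ := el_foldr hF ((List.range 6).map (digN n)) (fun x hx => by
    obtain ⟨i, -, rfl⟩ := List.mem_map.1 hx
    exact digN_lt _ _)
  refine ⟨h1, ?_⟩
  unfold prodN
  rw [h2, Fin.prod_univ_def, show List.range 6 = (List.finRange 6).map Fin.val from rfl,
    List.map_map, List.map_map]
  rfl

omit hF in
/-- support two, or (for a non-zero code) product with that code -/
def P (hF : Fintype.card F = 4) (c : ℕ) (v : Fin 6 → F) : Prop :=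
  (supp v).card = 2 ∨ (c ≠ 0 ∧ ∏ i, v i = el hF c)

theorem P_vec {c : ℕ} (hc : c < 4) {n : ℕ} (hn : n < 4096) :
    P hF c (vec hF n) ↔ pB c n = true := by
  have h1 := List.all_eq_true.1 mask_check c (by simp; omega)
  have h2 := beq_iff_eq.1 (List.all_eq_true.1 h1 n (List.mem_range.2 hn))
  rw [h2]
  unfold P PN
  obtain ⟨hp, hpe⟩ := prod_vec hF n
  rw [supp_vec, hpe]
  simp only [Bool.or_eq_true, Bool.and_eq_true, Bool.not_eq_true', ← Bool.not_eq_true, Nat.beq_eq]
  constructor
  · rintro (h | ⟨h, h'⟩)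
    exacts [Or.inl h, Or.inr ⟨h, el_inj hF hp hc h'⟩]
  · rintro (h | ⟨h, h'⟩)
    exacts [Or.inl h, Or.inr ⟨h, by rw [h']⟩]

/-- counting vectors with a coded property -/
theorem card_filter_vec (p : (Fin 6 → F) → Prop) (q : ℕ → Bool)
    (h : ∀ n < 4096, (p (vec hF n) ↔ q n = true)) :
    (Finset.univ.filter p).card = ((List.range 4096).filter q).length := by
  rw [← List.toFinset_card_of_nodup (List.Nodup.filter _ (List.nodup_range))]
  symm
  refine Finset.card_bij (fun n _ => vec hF n) ?_ ?_ ?_
  · intro n hn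
    simp only [List.mem_toFinset, List.mem_filter, List.mem_range] at hn
    simp [(h n hn.1).2 hn.2]
  · intro a ha b hb e
    simp only [List.mem_toFinset, List.mem_filter, List.mem_range] at ha hb
    exact vec_inj hF ha.1 hb.1 e
  · intro v hv
    obtain ⟨n, hn, rfl⟩ := vec_surj hF v
    exact ⟨n, by simp [hn, (h n hn).1 (Finset.mem_filter.1 hv).2], rfl⟩

end CfsgLib.U43
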